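import Cfsg.Agent.H1.G2a
import Cfsg.Agent.H16.ABG2

/-! Sylow `2`-subgroups of type `G₂(q)`: the dihedral quotients `S / Qᵢ`. -/

set_option autoImplicit false
set_option linter.unusedSectionVars false
set_option linter.unusedVariables false

namespace Cfsg.Agent.H1.G2

open Subgroup Cfsg.Agent.H19.Gt Cfsg.Agent.FT Cfsg.Agent.GW Cfsg.Agent.GW.Cor
open scoped commutatorElement

universe w

variable {G : Type w} {K : Type*} [Group G] [Finite G] [CommGroup K] {τ : K × K →* G} {u v : G} {z : K}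

namespace Gz

variable {S : Subgroup G}

theorem gen (h : Gz S τ u v z) : ∃ (κ : K) (m : ℕ), 2 ≤ m ∧ orderOf κ = 2 ^ m ∧
    (∀ a : K, ∃ i : ℕ, a = κ ^ i) ∧ κ ^ 2 ^ (m - 1) = z := by
  have := h.fin
  obtain ⟨κ, hκ⟩ := h.cyc.exists_ofOrder_eq_natCard
  obtain ⟨m, hm⟩ := IsPGroup.iff_card.1 h.two
  have h2 : 2 ≤ m := (Nat.pow_dvd_pow_iff_le_right (x := 2) one_lt_two).1 (hm ▸ h.four)
  refine ⟨κ, m, h2, hκ.trans hm, fun a => ?_, (h.inv2 ?_).resolve_left fun e => ?_⟩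
  · have : zpowers κ = ⊤ := eq_top_of_card_eq _ (by rw [Nat.card_zpowers, hκ])
    obtain ⟨i, hi⟩ := (mem_powers_iff_mem_zpowers.2 (this ▸ mem_top a) : a ∈ Submonoid.powers κ)
    exact ⟨i, hi.symm⟩
  · rw [← pow_add, ← two_mul, ← pow_succ', show m - 1 + 1 = m by omega, ← hm, ← hκ, pow_orderOf_eq_one]
  · have := Nat.le_of_dvd (by positivity) (orderOf_dvd_of_pow_eq_one e)
    rw [hκ, hm, Nat.pow_le_pow_iff_right one_lt_two] at this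
    omega

theorem tpow (τ : K × K →* G) (a b : K) (i : ℕ) : τ (a, b) ^ i = τ (a ^ i, b ^ i) := by
  rw [← map_pow]; rfl

theorem mcq (h : Gz S τ u v z) : ∃ a b m, H3.MCQ h.Q a b m := by
  obtain ⟨κ, m, h2, h3, h4, h5⟩ := h.gen
  have g := h.toGs
  have hi : τ (1, z * 1⁻¹) * v * τ (κ, κ⁻¹) * (τ (1, z * 1⁻¹) * v)⁻¹ = (τ (κ, κ⁻¹))⁻¹ := by
    rw [mul_inv_eq_iff_eq_mul, mul_assoc, g.vt, tm', tinv, tm', inv_inv, mul_comm 1, mul_comm κ]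
  have hs : (τ (1, z * 1⁻¹) * v) ^ 2 = τ (κ, κ⁻¹) ^ 2 ^ (m - 1) := by
    rw [sq, mul_assoc, g.vt', g.vv, mul_one, tm, tpow, inv_pow, h5, h.zi]; simp
  refine ⟨τ (κ, κ⁻¹), τ (1, z * 1⁻¹) * v, m, ⟨h2, H3.orderOf_eq_of_forall fun i => ?_, fun e => ?_, ?_,
    hs ▸ npow_mem_zpowers _ _, .inl hi⟩, hi, hs⟩
  · rw [tpow, g.teq1, inv_pow, inv_eq_one, and_self, ← h3, orderOf_dvd_iff_pow_eq_one]
  · obtain ⟨⟨a, b⟩, e⟩ : τ (1, z * 1⁻¹) * v ∈ τ.range := (zpowers_le (H := τ.range)).2 ⟨_, rfl⟩ e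
    exact h.ne_v _ _ _ _ e.symm
  · refine le_antisymm (sup_le (zpowers_le.2 ⟨κ, .inl rfl⟩) (zpowers_le.2 ⟨1, .inr rfl⟩)) ?_
    have k : ∀ a : K, τ (a, a⁻¹) ∈ ⟪τ (κ, κ⁻¹)⟫ := fun a => by
      obtain ⟨i, rfl⟩ := h4 a
      rw [← inv_pow, ← tpow]; exact npow_mem_zpowers _ _
    rintro _ ⟨a, rfl | rfl⟩
    · exact mem_sup_left (k a)
    · have := mul_mem (mem_sup_left (T := ⟪τ (1, z * 1⁻¹) * v⟫) (k a)) (mem_sup_right (mem_zpowers _))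
      rw [tm', mul_one, mul_comm a⁻¹] at this
      simpa using this

theorem flp_flp (h : Gz S τ u v z) : h.flp.flp.Q = h.Q := by
  ext s
  rw [h.flp.memQ', h.memQ, h.toGs.uu']
  simp only [fl_apply, mul_inv, h.zi]

theorem u_ne (h : Gz S τ u v z) (a b : K) : τ (a, b) * u ∉ h.Q := by
  rintro ⟨c, e | e⟩
  · exact h.ne_u _ _ _ _ e
  · refine h.ne_w a b c (z * c⁻¹) ?_
    rw [← mul_assoc, e, mul_assoc, h.vv, mul_one]

theorem a_mem (h : Gz S τ u v z) {a : K} (e : τ (a, 1) ∈ h.Q) : a = 1 := by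
  obtain ⟨c, e | e⟩ := e
  · obtain ⟨rfl, e⟩ := h.toGs.teq.1 e
    exact inv_eq_one.1 e.symm
  · exact (h.ne_v _ _ _ _ e.symm).elim

variable {Y : Type w} [Group Y] [Finite Y] {f : G →* Y}

theorem f_t (h : Gz S τ u v z) (hf : S ⊓ f.ker = h.Q) (a b : K) : f (τ (a, b)) = f (τ (a * b, 1)) := by
  have : f (τ (b⁻¹, b⁻¹⁻¹)) = 1 := (hf.ge (⟨_, .inl rfl⟩ : _ ∈ h.Q)).2
  rw [← mul_one (f (τ (a * b, 1))), ← this, ← map_mul, tm]; simp

theorem f_v (h : Gz S τ u v z) (hf : S ⊓ f.ker = h.Q) : f v = f (τ (z, 1)) := by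
  have : f (τ (1, z * 1⁻¹) * v) = 1 := (hf.ge (⟨_, .inr rfl⟩ : _ ∈ h.Q)).2
  rw [map_mul, h.f_t hf, mul_eq_one_iff_inv_eq, ← map_inv, tinv] at this
  rw [← this]; simp [h.zi]

theorem mcd (h : Gz S τ u v z) (hf : S ⊓ f.ker = h.Q) :
    ∃ a m, H3.MCD (S.map f) a (f u) m ∧ a ^ 2 ^ (m - 1) = f (τ (z, 1)) := by
  obtain ⟨κ, m, h2, h3, h4, h5⟩ := h.gen
  have g := h.toGs
  have hi : f u * f (τ (κ, 1)) * (f u)⁻¹ = (f (τ (κ, 1)))⁻¹ := by
    rw [← map_mul, g.ut, map_mul, mul_inv_cancel_right, ← map_inv, tinv]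
  have hs : f u ^ 2 = 1 := by rw [← map_pow, sq, g.uu, map_one]
  have k : ∀ a b : K, f (τ (a, b)) ∈ ⟪f (τ (κ, 1))⟫ := fun a b => by
    obtain ⟨i, e⟩ := h4 (a * b)
    rw [h.f_t hf a b, e, show τ (κ ^ i, 1) = τ (κ, 1) ^ i by rw [tpow, one_pow], map_pow]
    exact npow_mem_zpowers _ _
  refine ⟨f (τ (κ, 1)), m, ⟨⟨h2, H3.orderOf_eq_of_forall fun i => ?_, fun e => ?_, ?_,
    hs ▸ one_mem _, .inl hi⟩, hi, hs⟩, by rw [← map_pow, tpow, h5, one_pow]⟩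
  · rw [← map_pow, tpow, one_pow, ← h3, orderOf_dvd_iff_pow_eq_one]
    exact ⟨fun e => h.a_mem (hf.le ⟨g.tS _ _, e⟩), fun e => by rw [e, t1, map_one]⟩
  · obtain ⟨i, e⟩ := (mem_powers_iff_mem_zpowers.2 e : f u ∈ Submonoid.powers _)
    refine h.u_ne (κ ^ i) 1 (hf.le ⟨mul_mem (g.tS _ _) g.uS, ?_⟩)
    change f _ = 1
    simp only at e
    rw [map_mul, show τ (κ ^ i, 1) = τ (κ, 1) ^ i by rw [tpow, one_pow], map_pow, e, ← sq, hs]
  · refine le_antisymm (sup_le (zpowers_le.2 ⟨_, g.tS _ _, rfl⟩) (zpowers_le.2 ⟨_, g.uS, rfl⟩)) ?_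
    rintro _ ⟨s, hs, rfl⟩
    have k1 := fun a b => mem_sup_left (T := ⟪f u⟫) (k a b)
    have k2 := mem_sup_right (S := ⟪f (τ (κ, 1))⟫) (mem_zpowers (f u))
    obtain ⟨a, b, rfl | rfl | rfl | rfl⟩ := (g.mem _).1 hs
    · exact k1 a b
    all_goals simp only [map_mul, h.f_v hf]
    exacts [mul_mem (k1 a b) k2, mul_mem (k1 a b) (k1 z 1), mul_mem (k1 a b) (mul_mem k2 (k1 z 1))]

theorem map_M (h : Gz S τ u v z) (hf : S ⊓ f.ker = h.Q) : h.M.map f = h.flp.Q.map f := by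
  refine le_antisymm ?_ (map_mono h.Q_le')
  rintro _ ⟨s, hs, rfl⟩
  obtain ⟨a, ha, b, hb, rfl⟩ := h.M_eq hs
  exact ⟨a, ha, by rw [map_mul, show f b = 1 from (hf.ge hb).2, mul_one]⟩

end Gz

variable {S : Sylow 2 G} {X : Subgroup G}

theorem Hy.M_le_der (h : Hy S τ u v z X) : h.gz.M ≤ commutator G := by
  have g := h.gz.toGs
  let p := Abelianization.of (G := G)
  have k : ∀ s ∈ h.gz.M, s * s = 1 → s ≠ 1 → s ≠ τ (z, z) → p s = p (τ (z, 1)) := fun s a b c d =>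
    isConj_iff_eq.1 (p.map_isConj (h.fus s a b c d))
  have k1 := k u h.gz.uM g.uu (by simpa [t1] using h.gz.ne_u 1 1 1 1) (by simpa [t1] using h.gz.ne_u 1 1 z z)
  have k2 := k v h.gz.vM g.vv (by simpa [t1] using h.gz.ne_v 1 1 1 1) (by simpa [t1] using h.gz.ne_v 1 1 z z)
  have k3 := k (u * v) (mul_mem h.gz.uM h.gz.vM) g.flip.vv (by simpa [t1] using h.gz.ne_w 1 1 1 1)
    (by simpa [t1] using h.gz.ne_w 1 1 z z)
  rw [map_mul, k1, k2, mul_eq_left] at k3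
  refine h.gz.M_gen fun s a b c d => ?_
  rw [← Abelianization.ker_of]
  exact (k s a b c d).trans k3

theorem Hy.le_X (h : Hy S τ u v z X) {N : Subgroup G} (hN : N ⊴ ⊤) (e : (S : Subgroup G) ⊓ N ≤ X) : N ≤ X := by
  have h1 := (H3.syl_coe S).inf_nml hN
  have h2 : X.relIndex N ∣ 2 := h.idx ▸ (have := h.nml; relIndex_dvd_index_of_normal X N)
  have h3 : X.relIndex N ∣ ((S : Subgroup G) ⊓ N).relIndex N := relIndex_dvd_of_le_left _ e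
  rcases (Nat.dvd_prime Nat.prime_two).1 h2 with e' | e'
  · exact relIndex_eq_one.1 e'
  · rw [e'] at h3
    exact (h1.not_dvd Nat.prime_two h3).elim

theorem Hy.conjX (h : Hy S τ u v z X) {s : G} (e : IsConj s (τ (z, 1))) :
    ∃ g ∈ X, g * s * g⁻¹ = τ (z, 1) := by
  obtain ⟨g, e⟩ := isConj_iff.1 e
  by_cases hg : g ∈ X
  · exact ⟨g, hg, e⟩
  obtain ⟨κ, m, h2, h3, h4, h5⟩ := h.gz.gen
  have hx : τ (κ, 1) ∉ X := fun e => by
    have : (S : Subgroup G) ≤ X := fun s hs => by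
      have k0 := h.inf.ge.trans inf_le_right
      have k : ∀ a b, τ (a, b) ∈ X := fun a b => by
        obtain ⟨i, e'⟩ := h4 (a * b)
        have := mul_mem (pow_mem e i) (k0 (h.gz.Q_le ⟨b⁻¹, .inl rfl⟩))
        rw [Gz.tpow, ← e', tm] at this
        simpa using this
      obtain ⟨a, b, rfl | rfl | rfl | rfl⟩ := (h.gz.mem _).1 hs
      exacts [k a b, mul_mem (k a b) (k0 h.gz.uM), mul_mem (k a b) (k0 h.gz.vM),
        mul_mem (k a b) (k0 (mul_mem h.gz.uM h.gz.vM))]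
    have h6 := h.le_X (Nml.refl ⊤) (inf_le_left.trans this)
    have := h.idx
    rw [top_le_iff.1 h6, index_top] at this
    omega
  refine ⟨τ (κ, 1) * g, (mul_mem_iff_of_index_two h.idx).2 (iff_of_false hx hg), ?_⟩
  rw [mul_inv_rev, ← mul_assoc, mul_assoc _ g, mul_assoc _ (g * s), e, tinv, tm, tm]
  simp [mul_comm κ]

end Cfsg.Agent.H1.G2
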