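import Cfsg.Agent.H1.G2b

/-! Sylow `2`-subgroups of type `G₂(q)`: the quotient by a normal subgroup with Sylow subgroup `Q₂`. -/

set_option autoImplicit false
set_option linter.unusedSectionVars false
set_option linter.unusedVariables false

namespace Cfsg.Agent.H1.G2

open Subgroup Cfsg.Agent.H19.Gt Cfsg.Agent.FT Cfsg.Agent.GW Cfsg.Agent.GW.Cor Cfsg.Agent.H16
open scoped commutatorElement

universe w

variable {G : Type w} {K : Type*} [Group G] [Finite G] [CommGroup K] {τ : K × K →* G} {u v : G} {z : K}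
  {S : Sylow 2 G} {X : Subgroup G}

theorem sup_three {D V : Subgroup G} {g : G} (hD : #D = 12) (hV : #V = 4) (hn : V ⊴ ⊤) (hs : Syl 2 V D)
    (hg : g ∈ D) (ho : PiElt {2}ᶜ g) (h1 : g ≠ 1) : V ⊔ ⟪g⟫ = D ∧ #⟪g⟫ = 3 := by
  have h2 := odd_zpowers ho
  have h3 := card_sup_of_inf (zpowers_le.2 (hn.nrm (mem_top g))) (cop_of_odd hs.pi h2).inf
  have h4 := card_dvd_of_le (sup_le hs.le (zpowers_le.2 hg))
  have h5 : #⟪g⟫ ≠ 1 := fun e => h1 (zpowers_eq_bot.1 (eq_bot_iff_card'.2 e))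
  rw [h3, hV, hD, show 12 = 4 * 3 from rfl, Nat.mul_dvd_mul_iff_left (by norm_num)] at h4
  have h6 := ((Nat.dvd_prime Nat.prime_three).1 h4).resolve_left h5
  exact ⟨eq_of_card_eq (sup_le hs.le (zpowers_le.2 hg)) (by rw [h3, hV, hD, h6]), h6⟩

theorem side (h : Hy S τ u v z X) {N : Subgroup G} (hN : N.Normal) (e : (S : Subgroup G) ⊓ N = h.gz.Q) :
    ∃ (Y : Type w) (_ : Group Y) (_ : Finite Y) (f : G →* Y), Function.Surjective f ∧
      (S : Subgroup G) ⊓ f.ker = h.gz.Q ∧ ⁅(⊤ : Subgroup Y), (⊤ : Subgroup Y)⁆ ≤ ⁅(⊤ : Subgroup Y), ⁅(⊤ : Subgroup Y), (⊤ : Subgroup Y)⁆⁆ ∧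
      (∀ L : Subgroup G, L ⊴ ⊤ → (S : Subgroup G) ⊓ L = h.gz.flp.Q →
        (∀ x ∈ L, f x = 1 → x = 1 ∨ x = τ (z, z)) → L.map f = ⁅(⊤ : Subgroup Y), (⊤ : Subgroup Y)⁆ → SL2 L) ∧
      ((∀ N : Subgroup G, N ⊴ ⊤ → h.gz.flp.Q ≤ N → ⁅(⊤ : Subgroup Y), (⊤ : Subgroup Y)⁆ ≤ N.map f) ∨
        (∀ g, PiElt {2}ᶜ g → ∀ b ∈ h.gz.M, f b ≠ 1 → f b * f b = 1 → f b * f g = f g * f b → f g = 1) ∧
        (∀ N : Subgroup G, h.gz.flp.Q ≤ N → ∀ g ∈ N, PiElt {2}ᶜ g → f g ≠ 1 →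
          ⁅(⊤ : Subgroup Y), (⊤ : Subgroup Y)⁆ ≤ N.map f) ∧
        ∀ g ∈ X, PiElt {2} (f g) → ∀ a ∈ h.gz.M, f g * f a = f a * f g) := by
  have hS := H3.syl_coe S
  have g := h.gz.toGs
  obtain ⟨Y, _, _, f, hf, hO, hk⟩ : ∃ (Y : Type w) (_ : Group Y) (_ : Finite Y) (f : G →* Y),
      Function.Surjective f ∧ Od((⊤ : Subgroup Y)) = ⊥ ∧ (S : Subgroup G) ⊓ f.ker = h.gz.Q := by
    refine ⟨_, _, inferInstance, (QuotientGroup.mk' (oddCore (G ⧸ N))).comp (QuotientGroup.mk' N),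
      (QuotientGroup.mk'_surjective _).comp (QuotientGroup.mk'_surjective _), od_quo, ?_⟩
    rw [← e]
    ext s
    rw [mem_inf, mem_inf, MonoidHom.mem_ker, MonoidHom.comp_apply, ← MonoidHom.mem_ker, QuotientGroup.ker_mk']
    refine and_congr_right fun hs => ⟨fun h1 => ?_, fun h1 => ?_⟩
    · have := ((hS.pi.map (QuotientGroup.mk' N)).piElt ⟨s, hs, rfl⟩).eq_one_of_mem
        (pcore_pi _ ⊤) (od_top (G := G ⧸ N) ▸ h1)
      rwa [← MonoidHom.mem_ker, QuotientGroup.ker_mk'] at this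
    · rw [show QuotientGroup.mk' N s = 1 from (QuotientGroup.eq_one_iff _).2 h1]; exact one_mem _
  refine ⟨Y, _, inferInstance, f, hf, hk, ?_⟩
  have hS' := syl_map hf hS
  obtain ⟨a, m, hd, hz⟩ := h.gz.mcd hk
  have hT : #⟪a⟫ ≠ 2 := by
    have := hd.two_le
    rw [hd.card_a]; exact (Nat.pow_lt_pow_right (m := 1) one_lt_two (by omega)).ne'
  have hd' := dh_of_mcd hd
  have hD := hd'.d2.dg hS'
  have MX : h.gz.M ≤ X := h.inf.ge.trans inf_le_right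
  have kX : f.ker ≤ X := h.le_X (nml_top_iff.2 inferInstance) (hk.le.trans (h.gz.Q_le.trans MX))
  have hX : (X.map f).index = 2 := (index_map_eq _ hf kX).trans h.idx
  have hDX : ⁅(⊤ : Subgroup Y), (⊤ : Subgroup Y)⁆ ≤ X.map f := commutator_le.2 fun a _ b _ => by
    simp only [commutatorElement_def, mul_mem_iff_of_index_two hX, inv_mem_iff]; tauto
  have hc : (commutator G).map f = ⁅(⊤ : Subgroup Y), (⊤ : Subgroup Y)⁆ := by
    rw [_root_.commutator_def, map_commutator, map_top_of_surjective f hf]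
  have hSX : (S : Subgroup G).map f ⊓ X.map f ≤ h.gz.M.map f := by
    rintro _ ⟨⟨s, hs, rfl⟩, h1⟩
    exact ⟨s, h.inf.le ⟨hs, (comap_map_eq_self kX).le h1⟩, rfl⟩
  have hMD : h.gz.M.map f ≤ (S : Subgroup G).map f ⊓ ⁅(⊤ : Subgroup Y), (⊤ : Subgroup Y)⁆ :=
    le_inf (map_mono h.gz.M_le) (hc ▸ map_mono h.M_le_der)
  have hSD : (S : Subgroup G).map f ⊓ ⁅(⊤ : Subgroup Y), (⊤ : Subgroup Y)⁆ = h.gz.M.map f :=
    le_antisymm ((inf_le_inf_left _ hDX).trans hSX) hMD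
  have ft : f (τ (z, z)) = 1 := (hk.ge h.gz.tQ).2
  have ht : Invo (τ (z, z)) := invo_of h.gz.tt h.gz.t_ne
  have hu : ∀ L : Subgroup G, L ⊴ ⊤ → (S : Subgroup G) ⊓ L = h.gz.flp.Q →
      ∀ x ∈ L, x * x = 1 → x = 1 ∨ x = τ (z, z) := fun L hL eL x hx e => or_iff_not_imp_left.2 fun e1 => by
    obtain ⟨c, -, hg⟩ := (hS.inf_nml hL).syl_elt hx (invo_of e e1).pElt
    have h5 := (invo_of e e1).conj c
    rw [show x = c⁻¹ * (c * x * c⁻¹) * c by group, (h.gz.Q_inv' (eL.le hg) h5.sq).resolve_left h5.ne,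
      h.cen, inv_mul_cancel_right]
  have hk' : ∀ L : Subgroup G, (∀ x ∈ L, f x = 1 → x = 1 ∨ x = τ (z, z)) →
      ∀ x ∈ L, f x = 1 ↔ x = 1 ∨ x = τ (z, z) := fun L e x hx =>
    ⟨e x hx, fun e => e.elim (· ▸ map_one f) (· ▸ ft)⟩
  by_cases e : E((⊤ : Subgroup Y)) = ⊥
  · obtain ⟨h5, h6, V, h7, h8, h9⟩ := sol_der hD hO e hS' hd' hT fun e => by
      have h1 := hS'.ge_of_nml e (Nml.refl _)
      obtain ⟨c, hc⟩ := isConj_iff.1 (h.fus u h.gz.uM g.uu (by simpa [t1] using h.gz.ne_u 1 1 1 1)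
        (by simpa [t1] using h.gz.ne_u 1 1 z z)).symm
      refine hd.nmem ?_
      rw [← hc, map_mul, map_mul, ← hz, mem_cen.1 hd.z_cen _ (h1 (mem_top (f c))), map_inv,
        mul_inv_cancel_right]
      exact hd.z_mem
    have hi := piGen_idem {2}ᶜ (⊤ : Subgroup Y)
    have hl : ∀ g : G, PiElt {2}ᶜ g → f g ∈ piGen {2}ᶜ (⊤ : Subgroup Y) ∧ PiElt {2}ᶜ (f g) := fun g o => by
      have : PiElt {2}ᶜ (f g) := (o.zpowers.map f).piElt ⟨g, mem_zpowers g, rfl⟩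
      exact ⟨mem_piGen (mem_top _) this, this⟩
    have hsup := Hall.piGen_sup (π := {2}ᶜ) (H := (S : Subgroup G).map f) (M := ⊤) (by rw [compl_compl]; exact hS')
    rw [← h5] at h6 h9 hi hl hsup
    have hV : h.gz.M.map f = V := hSD ▸ h9.uniq_of_nml (le_top.trans h7.nrm) (hS'.inf_nml (der_nml ⊤))
    have hn := der_nml (⊤ : Subgroup Y)
    have hD1 : ⁅(⊤ : Subgroup Y), (⊤ : Subgroup Y)⁆ ≤ ⁅⁅(⊤ : Subgroup Y), (⊤ : Subgroup Y)⁆, ⁅(⊤ : Subgroup Y), (⊤ : Subgroup Y)⁆⁆ ⊔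
        ⁅⁅(⊤ : Subgroup Y), (⊤ : Subgroup Y)⁆, (S : Subgroup G).map f⁆ ⊔ ⁅(S : Subgroup G).map f, (S : Subgroup G).map f⁆ := by
      rw [← der_sup_eq (le_top.trans hn.nrm), hsup]
    generalize ⁅(⊤ : Subgroup Y), (⊤ : Subgroup Y)⁆ = D at *
    refine ⟨?_, fun L hL eL kL e => ?_, .inr ⟨fun c o b hb b1 b2 b3 => by_contra fun c1 => ?_,
      fun N hN c hc o c1 => ?_, fun c hc o a ha => ?_⟩⟩
    · have n1 : (⊤ : Subgroup Y) ≤ N(⁅(⊤ : Subgroup Y), D⁆) := normsR (le_nrm _) hn.nrm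
      have h1 : D ≤ ⁅(⊤ : Subgroup Y), D⁆ ⊔ (S : Subgroup G).map f := hD1.trans (sup_le_sup (sup_le
        (commSS le_top le_rfl) ((commC _ _).le.trans (commSS le_top le_rfl))) (der_le _))
      refine hi.ge.trans ((piGen_mono _ h1).trans (piGen_min (le_top.trans n1) ?_))
      rw [compl_compl, relIndex_sup_norm (le_top.trans n1)]
      exact hS'.pi.piNat.of_dvd (relIndex_dvd _ _)
    · have tL : τ (z, z) ∈ L := (eL.ge h.gz.tQ').2
      have hcard : ∀ A ≤ L, τ (z, z) ∈ A → #A = 2 * #(A.map f) := fun A hA e => by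
        have h5 : f.ker ⊓ A = ⟪τ (z, z)⟫ := le_antisymm
          (fun x e => (Invo.mem_zpowers ht).2 (kL x (hA e.2) e.1)) (zpowers_le.2 ⟨ft, e⟩)
        rw [card_map_eq, ← inf_relIndex_right, ← card_mul_relIndex (inf_le_right : f.ker ⊓ A ≤ A), h5,
          Invo.card ht]
      have QL : h.gz.flp.Q ≤ L := eL.ge.trans inf_le_right
      obtain ⟨p, q, k, hq⟩ := h.gz.flp.mcq
      have h14 : h.gz.flp.Q = L ⊓ V.comap f := le_antisymm (le_inf QL (map_le_iff_le_comap.1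
        (h.gz.map_M hk ▸ hV).le)) fun x hx => by
          obtain ⟨y, hy, e⟩ := (h.gz.map_M hk ▸ hV).ge hx.2
          rcases kL (x * y⁻¹) (mul_mem hx.1 (inv_mem (QL hy))) (by rw [map_mul, map_inv, e, mul_inv_cancel])
            with e | e
          · exact mul_inv_eq_one.1 e ▸ hy
          · exact eq_mul_of_mul_inv_eq e ▸ mul_mem h.gz.tQ' hy
      have h15 : (piGen {2}ᶜ L).map f = D := by rw [map_piGen, e, hi]
      refine sl23_of hq (h14 ▸ (hL.inf (h7.comap f)).mono inf_le_left le_top) ?_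
        (by rw [hcard _ QL h.gz.tQ', ← h.gz.map_M hk, hV, h8]) (by rw [hcard _ le_rfl tL, e, h6])
      obtain ⟨i, i1, i2⟩ := exists_invo (H := piGen {2}ᶜ L) (((show 2 ∣ 12 by norm_num).trans
        (h15 ▸ h6).symm.dvd).trans (card_map_dvd' f _))
      obtain rfl := (hu L hL eL i (piGen_le _ _ i1) i2.sq).resolve_left i2.ne
      exact eq_of_card_eq (piGen_le _ _) (by rw [hcard _ (piGen_le _ _) i1, hcard _ le_rfl tL, e, h15])
    · obtain ⟨h1, h2⟩ := sup_three h6 h8 h7 h9 (hl c o).1 (hl c o).2 c1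
      have h3 : ⟪f c⟫ ≤ C(V) := (hD V le_top h9.pi).cents (odd_zpowers (hl c o).2)
        (le_top.trans h7.nrm) (hV.le ⟨b, hb, rfl⟩) (invo_of b2 b1) (zpowers_le.2 (mem_cen1.2 b3.symm))
      have h4 : D ≤ N(⟪f c⟫) := h1 ▸ sup_le ((centsC h3).trans (cen_le_nrm _)) (le_nrm _)
      have h10 := card_mul_relIndex (zpowers_le.2 (hl c o).1)
      rw [h2, h6] at h10
      have h11 := card_le_of_le (hi.ge.trans (piGen_min h4 (by
        rw [compl_compl, show (⟪f c⟫).relIndex D = 2 ^ 2 by omega]; exact piNat_self_pow Nat.prime_two 2)))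
      omega
    · rw [← (sup_three h6 h8 h7 h9 (hl c o).1 (hl c o).2 c1).1, ← hV, h.gz.map_M hk]
      exact sup_le (map_mono hN) (zpowers_le.2 ⟨c, hc, rfl⟩)
    · have h1 := hS'.inf_nml (nml_top_iff.2 (h.nml.map f hf))
      rw [le_antisymm hSX (le_inf (map_mono h.gz.M_le) (map_mono MX)), hV] at h1
      exact (ab_of_card_sq Nat.prime_two h8).comm (h1.mem_of_nml (le_top.trans h7.nrm) ⟨c, hc, rfl⟩ o)
        (hV.le ⟨a, ha, rfl⟩)
  have hQ := lay_qs hD e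
  have hE := lay_nml (⊤ : Subgroup Y)
  have hC := (cen_eq_core hD hQ hE).trans hO
  generalize E((⊤ : Subgroup Y)) = E at hQ hE hC
  obtain ⟨t, J, h6⟩ | ⟨h6, -⟩ := simple_cases GW.gw hD hE hQ hC
  swap
  · have h1 : X.map f = ⊤ := top_le_iff.1 (h6.le.trans (hQ.perf.ge.trans ((der_mono le_top).trans hDX)))
    rw [h1, index_top] at hX
    omega
  have h7 : ⁅(⊤ : Subgroup Y), (⊤ : Subgroup Y)⁆ = E := le_antisymm (rw_der_le h6 hD hE hQ hC) (hQ.perf.ge.trans (der_mono le_top))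
  rw [h7]
  refine ⟨hQ.perf.ge.trans (commSS le_top le_rfl), fun L hL eL kL e => sl2_of_map f (t := t) (K := J)
    (eL.ge h.gz.tQ').2 ht.ne (hk' L kL) (hu L hL eL) (hD.mono le_top) (e.symm ▸ hQ) (e.symm ▸ h6),
    .inl fun N hN e => ?_⟩
  have h10 : N.map f ⊴ ⊤ := map_top_of_surjective f hf ▸ hN.map f
  refine (hQ.comm_eq_or (le_top.trans hE.nrm : N.map f ≤ _)).elim
    (fun e => e.ge.trans (comm_le_right (le_top.trans h10.nrm))) fun e' => ?_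
  have h11 := eq_bot_of_le (le_inf le_top e') hC
  rw [Subgroup.map_eq_bot_iff] at h11
  obtain ⟨ρ, r, -⟩ := h.gz.rho
  have h12 : τ (ρ, ρ) ∈ h.gz.flp.Q := h.gz.memQ'.2 ⟨ρ, .inl rfl⟩
  rcases h.gz.Q_inf h12 (hk.le ⟨g.tS _ _, h11 (e h12)⟩) with e | e
  · exact (h.gz.z1 (by rw [← r, (g.teq1.1 e).1, one_mul])).elim
  · exact (h.gz.z1 (by rw [← r, (g.teq.1 e).1, h.gz.zz])).elim

end Cfsg.Agent.H1.G2
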