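import Cfsg.Agent.H1.G2c

/-! Sylow `2`-subgroups of type `G₂(q)`: the two `SL₂` factors of `C(t)/O(C(t))`. -/

set_option autoImplicit false
set_option linter.unusedSectionVars false
set_option linter.unusedVariables false

namespace Cfsg.Agent.H1.G2

open Subgroup Cfsg.Agent.H19.Gt Cfsg.Agent.FT Cfsg.Agent.GW Cfsg.Agent.GW.Cor Cfsg.Agent.H16
open scoped commutatorElement

universe w

variable {G : Type w} {K : Type*} [Group G] [Finite G] [CommGroup K] {τ : K × K →* G} {u v : G} {z : K}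
  {S : Sylow 2 G} {X : Subgroup G}

theorem half {Y Y' : Type*} [Group Y] [Group Y'] {f : G →* Y} {f' : G →* Y'} (hf : Function.Surjective f)
    (hI : ∀ x, f x = 1 → f' x = 1 → x ∈ commutator G) (hG : commutator G ≤ f.ker ⊔ f'.ker)
    (ha : ⁅(⊤ : Subgroup Y), (⊤ : Subgroup Y)⁆ ≤ ⁅(⊤ : Subgroup Y), ⁅(⊤ : Subgroup Y), (⊤ : Subgroup Y)⁆⁆) :
    (f'.ker ⊓ ⁅(⊤ : Subgroup Y), (⊤ : Subgroup Y)⁆.comap f) ⊴ ⊤ ∧
    (f'.ker ⊓ ⁅(⊤ : Subgroup Y), (⊤ : Subgroup Y)⁆.comap f).map f = ⁅(⊤ : Subgroup Y), (⊤ : Subgroup Y)⁆ ∧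
    f'.ker ⊓ ⁅(⊤ : Subgroup Y), (⊤ : Subgroup Y)⁆.comap f ≤ commutator G := by
  have hc : (commutator G).map f = ⁅(⊤ : Subgroup Y), (⊤ : Subgroup Y)⁆ := by
    rw [_root_.commutator_def, map_commutator, map_top_of_surjective f hf]
  have n : (f'.ker ⊓ ⁅(⊤ : Subgroup Y), (⊤ : Subgroup Y)⁆.comap f) ⊴ ⊤ :=
    (nml_top_iff.2 inferInstance).inf ((der_nml ⊤).comap f)
  have m : (f'.ker ⊓ ⁅(⊤ : Subgroup Y), (⊤ : Subgroup Y)⁆.comap f).map f = ⁅(⊤ : Subgroup Y), (⊤ : Subgroup Y)⁆ := by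
    refine le_antisymm (map_le_iff_le_comap.2 inf_le_right) fun y hy => ?_
    have h1 := map_mono (f := f) hG
    rw [hc, Subgroup.map_sup, (Subgroup.map_eq_bot_iff _).2 le_rfl, bot_sup_eq] at h1
    obtain ⟨x, hx, rfl⟩ := h1 hy
    exact ⟨x, ⟨hx, hy⟩, rfl⟩
  refine ⟨n, m, fun x hx => ?_⟩
  have h2 : f x ∈ ⁅(⊤ : Subgroup G), f'.ker ⊓ ⁅(⊤ : Subgroup Y), (⊤ : Subgroup Y)⁆.comap f⁆.map f := by
    rw [map_commutator, m, map_top_of_surjective f hf]; exact ha hx.2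
  obtain ⟨c, h3, h4⟩ := h2
  have h5 : f' c = 1 := (comm_le_right n.nrm h3).1
  have h6 := hI (x * c⁻¹) (by rw [map_mul, map_inv, h4, mul_inv_cancel])
    (by rw [map_mul, map_inv, h5, show f' x = 1 from hx.1, inv_one, mul_one])
  simpa using mul_mem h6 (commSS le_top le_top h3)

theorem pC (h : Hy S τ u v z X) (hO : Cfsg.oddCore G = ⊥) {N₁ N₂ : Subgroup G} (n1 : N₁.Normal)
    (n2 : N₂.Normal) (e1 : (S : Subgroup G) ⊓ N₁ = h.gz.flp.Q) (e2 : (S : Subgroup G) ⊓ N₂ = h.gz.Q) :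
    ∃ L₁ L₂ : Subgroup G, L₁.Normal ∧ L₂.Normal ∧ H16.SL2 L₁ ∧ H16.SL2 L₂ ∧ ⁅L₁, L₂⁆ = ⊥ ∧
      L₁ ⊔ L₂ = commutator G := by
  have hS := H3.syl_coe S
  have g := h.gz.toGs
  obtain ⟨Y₁, _, _, f₁, s1, k1, a1, c1, b1⟩ := side h n2 e2
  obtain ⟨Y₂, _, _, f₂, s2, k2, a2, c2, b2⟩ := side h.flp n1 e1
  rw [h.gz.flp_flp, h.gz.fl_t] at c2
  rw [h.gz.flp_flp, h.gz.flp_M] at b2
  have k2 : (S : Subgroup G) ⊓ f₂.ker = h.gz.flp.Q := k2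
  have ht : Invo (τ (z, z)) := invo_of h.gz.tt h.gz.t_ne
  have q1 : h.gz.flp.Q ≤ f₂.ker := k2.ge.trans inf_le_right
  have q2 : h.gz.Q ≤ f₁.ker := k1.ge.trans inf_le_right
  have m1 : f₁.ker ⊴ ⊤ := nml_top_iff.2 inferInstance
  have m2 : f₂.ker ⊴ ⊤ := nml_top_iff.2 inferInstance
  have hI : ∀ x, f₁ x = 1 → f₂ x = 1 → x = 1 ∨ x = τ (z, z) := fun x x1 x2 => by
    have h5 := hS.inf_nml (m1.inf m2)
    rw [show (S : Subgroup G) ⊓ (f₁.ker ⊓ f₂.ker) = ⟪τ (z, z)⟫ from le_antisymm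
      (fun s hs => (Invo.mem_zpowers ht).2 (h.gz.Q_inf (k2.le ⟨hs.1, hs.2.2⟩) (k1.le ⟨hs.1, hs.2.1⟩)))
      (zpowers_le.2 ⟨g.tS _ _, q2 h.gz.tQ, q1 h.gz.tQ'⟩)] at h5
    have h6 := ((npc_of_syl_center h5 fun c _ => mem_cen.2 fun y hy => by
      rcases (Invo.mem_zpowers ht).1 hy with rfl | rfl
      exacts [by rw [one_mul, mul_one], (h.cen c).symm]).sd h5).sup
    rw [eq_bot_of_le (le_core (odd_core _) ((pcore_char _ _).nml_trans (m1.inf m2))) (od_top.trans hO),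
      bot_sup_eq] at h6
    exact (Invo.mem_zpowers ht).1 (h6.ge ⟨x1, x2⟩)
  have tG : τ (z, z) ∈ commutator G := h.M_le_der (h.gz.Q_le h.gz.tQ)
  have hI' : ∀ x, f₁ x = 1 → f₂ x = 1 → x ∈ commutator G := fun x x1 x2 =>
    (hI x x1 x2).elim (· ▸ one_mem _) (· ▸ tG)
  have hc1 : (commutator G).map f₁ = ⁅(⊤ : Subgroup Y₁), (⊤ : Subgroup Y₁)⁆ := by
    rw [_root_.commutator_def, map_commutator, map_top_of_surjective f₁ s1]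
  have hc2 : (commutator G).map f₂ = ⁅(⊤ : Subgroup Y₂), (⊤ : Subgroup Y₂)⁆ := by
    rw [_root_.commutator_def, map_commutator, map_top_of_surjective f₂ s2]
  have hG : commutator G ≤ f₁.ker ⊔ f₂.ker := by
    have w1 : ⁅(⊤ : Subgroup Y₁), (⊤ : Subgroup Y₁)⁆ ≤ f₂.ker.map f₁ → commutator G ≤ f₁.ker ⊔ f₂.ker :=
      fun e => by rw [sup_comm, ← comap_map_eq]; exact map_le_iff_le_comap.1 (hc1.le.trans e)
    obtain b1 | ⟨-, b1, d1⟩ := b1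
    · exact w1 (b1 _ m2 q1)
    obtain b2 | ⟨b2, -, -⟩ := b2
    · rw [← comap_map_eq]; exact map_le_iff_le_comap.1 (hc2.le.trans (b2 _ m1 q2))
    obtain ⟨ρ, r, -⟩ := h.gz.rho
    have ha : τ (ρ, ρ) ∈ h.gz.flp.Q := h.gz.memQ'.2 ⟨ρ, .inl rfl⟩
    have ha' : τ (1, z * 1) * (u * v) ∈ h.gz.flp.Q := h.gz.memQ'.2 ⟨1, .inr rfl⟩
    have hb : τ (ρ, ρ⁻¹) ∈ h.gz.Q := ⟨ρ, .inl rfl⟩
    have sa : τ (ρ, ρ) * τ (ρ, ρ) = τ (z, z) := by rw [tm, r]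
    have sb : τ (ρ, ρ⁻¹) * τ (ρ, ρ⁻¹) = τ (z, z) := by rw [tm, ← mul_inv, r, h.gz.zi]
    have sa' : τ (1, z * 1) * (u * v) * (τ (1, z * 1) * (u * v)) = τ (z, z) := by
      simp only [mul_assoc, g.vt', g.ut', g.vu', g.vv, g.uu, mul_one, tm, inv_one, one_mul, h.gz.zi]
    have ne : ∀ c d : K, τ (1, z * 1) * (u * v) ≠ τ (c, d) := h.gz.ne_w _ _
    generalize τ (1, z * 1) * (u * v) = a' at ha' sa' ne
    obtain ⟨p1, p2, p3⟩ := h.gz.prodQ ha hb sa sb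
    obtain ⟨p4, p5, p6⟩ := h.gz.prodQ ha' hb sa' sb
    obtain ⟨c, hc, ec⟩ := h.conjX (h.fus _ (mul_mem (h.gz.Q_le' ha) (h.gz.Q_le hb)) p1 p2 p3)
    obtain ⟨d, hd, ed⟩ := h.conjX (h.fus _ (mul_mem (h.gz.Q_le' ha') (h.gz.Q_le hb)) p4 p5 p6)
    have e3 : d⁻¹ * c * (τ (ρ, ρ) * τ (ρ, ρ⁻¹)) = a' * τ (ρ, ρ⁻¹) * (d⁻¹ * c) := by
      calc _ = d⁻¹ * (c * (τ (ρ, ρ) * τ (ρ, ρ⁻¹)) * c⁻¹) * c := by group
        _ = _ := by rw [ec, ← ed]; group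
    have hx := mul_mem (inv_mem hd) hc
    generalize d⁻¹ * c = x at e3 hx
    have e4 := congrArg f₁ e3
    have e5 := congrArg f₂ e3
    simp only [map_mul, show f₁ (τ (ρ, ρ⁻¹)) = 1 from q2 hb, show f₂ (τ (ρ, ρ)) = 1 from q1 ha,
      show f₂ a' = 1 from q1 ha', mul_one, one_mul] at e4 e5
    have o := piElt_constt {2}ᶜ x
    have e6 : f₂ (constt {2}ᶜ x) = 1 := b2 _ o _ (h.gz.Q_le hb) (fun e => by
      rcases h.gz.Q_inf (k2.le ⟨g.tS _ _, e⟩) hb with e | e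
      · exact ht.ne (by rw [← sb, e, one_mul])
      · exact ht.ne (by rw [← sb, e, h.gz.tt])) (by rw [← map_mul, sb]; exact q1 h.gz.tQ') (by
        rw [constt, map_pow]; exact ((show Commute _ _ from e5).pow_left _).symm)
    refine w1 (b1 _ q1 _ e6 o fun e7 => ?_)
    have e8 : f₁ x = f₁ (constt {2} x) := by
      conv_lhs => rw [← constt_mul_compl {2} x, map_mul, e7, mul_one]
    rw [d1 x hx (e8 ▸ ((piElt_constt {2} x).zpowers.map f₁).piElt ⟨_, mem_zpowers _, rfl⟩) _ (h.gz.Q_le' ha),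
      mul_left_inj] at e4
    have h9 : (τ (ρ, ρ))⁻¹ * a' ∈ h.gz.flp.Q := mul_mem (inv_mem ha) ha'
    rcases h.gz.Q_inf h9 (k1.le ⟨h.gz.M_le (h.gz.Q_le' h9), show f₁ _ = 1 by
      rw [map_mul, map_inv, e4, inv_mul_cancel]⟩) with e | e
    · exact ne _ _ (inv_mul_eq_one.1 e).symm
    · exact ne _ _ ((eq_mul_of_inv_mul_eq e).trans (tm ..))
  obtain ⟨l1, l2, l3⟩ := half s1 hI' hG a1
  obtain ⟨r1, r2, r3⟩ := half s2 (fun x a b => hI' x b a) (hG.trans (sup_comm _ _).le) a2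
  have hL1 := c1 _ l1 (le_antisymm (fun s hs => k2.le ⟨hs.1, hs.2.1⟩) (le_inf (h.gz.Q_le'.trans h.gz.M_le)
    (le_inf q1 (map_le_iff_le_comap.1 (hc1 ▸ map_mono (h.gz.Q_le'.trans h.M_le_der))))))
    (fun x hx e => hI x e hx.1) l2
  have hL2 := c2 _ r1 (le_antisymm (fun s hs => k1.le ⟨hs.1, hs.2.1⟩) (le_inf (h.gz.Q_le.trans h.gz.M_le)
    (le_inf q2 (map_le_iff_le_comap.1 (hc2 ▸ map_mono (h.gz.Q_le.trans h.M_le_der))))))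
    (fun x hx e => hI x hx.1 e) r2
  have tL : τ (z, z) ∈ f₂.ker ⊓ ⁅(⊤ : Subgroup Y₁), (⊤ : Subgroup Y₁)⁆.comap f₁ :=
    ⟨q1 h.gz.tQ', hc1.le ⟨_, tG, rfl⟩⟩
  have i1 : f₂.ker ⊓ ⁅(⊤ : Subgroup Y₁), (⊤ : Subgroup Y₁)⁆.comap f₁ ≤ f₂.ker := inf_le_left
  have i2 : f₁.ker ⊓ ⁅(⊤ : Subgroup Y₂), (⊤ : Subgroup Y₂)⁆.comap f₂ ≤ f₁.ker := inf_le_left
  generalize f₂.ker ⊓ ⁅(⊤ : Subgroup Y₁), (⊤ : Subgroup Y₁)⁆.comap f₁ = L₁ at *
  generalize f₁.ker ⊓ ⁅(⊤ : Subgroup Y₂), (⊤ : Subgroup Y₂)⁆.comap f₂ = L₂ at *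
  refine ⟨L₁, L₂, nml_top_iff.1 l1, nml_top_iff.1 r1, hL1, hL2, comm_eq_bot.2 ?_,
    le_antisymm (sup_le l3 r3) fun x hx => ?_⟩
  · refine hL1.gen.ge.trans (piGen_le_iff.2 fun x hx o => mem_cen.2 fun l hl => ?_)
    rcases hI (l * x * l⁻¹ * x⁻¹) (by
      rw [mul_assoc, mul_assoc, ← mul_assoc x]
      exact i2 (mul_mem hl (r1.conj_mem (mem_top x) (inv_mem hl))))
      (i1 (mul_mem (l1.conj_mem (mem_top l) hx) (inv_mem hx))) with e | e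
    · rwa [mul_inv_eq_one, mul_inv_eq_iff_eq_mul] at e
    · have e2 : l * x * l⁻¹ = τ (z, z) * x := by rw [← e, inv_mul_cancel_right]
      have e3 := congrArg (· ^ orderOf x) e2
      obtain ⟨j, hj⟩ : Odd (orderOf x) := card_zpowers' x ▸ odd_zpowers o
      simp only [conj_pow, pow_orderOf_eq_one, (show Commute _ x from (h.cen x).symm).mul_pow] at e3
      rw [hj, pow_succ, pow_mul, sq, h.gz.tt] at e3
      exact (ht.ne (by simpa using e3.symm)).elim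
  · obtain ⟨a, ha, ea⟩ := (hc1.trans l2.symm).le ⟨x, hx, rfl⟩
    obtain ⟨b, hb, eb⟩ := (hc2.trans r2.symm).le ⟨x, hx, rfl⟩
    have h1 := hI (x * (a * b)⁻¹) (by rw [map_mul, map_inv, map_mul, ea, show f₁ b = 1 from i2 hb]; simp)
      (by rw [map_mul, map_inv, map_mul, eb, show f₂ a = 1 from i1 ha]; simp)
    have h2 : x * (a * b)⁻¹ ∈ L₁ := h1.elim (· ▸ one_mem _) (· ▸ tL)
    simpa only [inv_mul_cancel_right] using mul_mem (mem_sup_left (T := L₂) h2) (mul_mem (mem_sup_left ha) (mem_sup_right hb))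

end Cfsg.Agent.H1.G2
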