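import Cfsg.Agent.H1.Th86
import Cfsg.Agent.H1.FitH
import Cfsg.Agent.H28.Eppo
import Cfsg.Agent.S3784
import Cfsg.Agent.H3.HallPetrescu

/-! Fixed-point-free automorphisms of order `2 ^ n` (Gross). -/

set_option autoImplicit false
set_option linter.unusedSectionVars false
set_option linter.style.haveILetI false

namespace Cfsg.Agent.H1

open Cfsg Module Subgroup Cfsg.Agent.FT Function
open Cfsg.Agent.H28 (rfix RInv rcent subRep quoRep SecRep bcRep)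
open scoped commutatorElement TensorProduct

universe u v

variable {G : Type u} [Group G] [Finite G] {k : Type*} [Field k] {V : Type v} [AddCommGroup V] [Module k V]
  {ρ : Representation k G V} {c : G → k} {q r n : ℕ} {A B D H K L M N P Q R S T U X Z : Subgroup G} {b : G}

theorem SecRep_dualOn' [Fact r.Prime] (S : SecRep r L D N) (hz : ⁅D, D⁆ ≤ Z) (hZ : Z ≤ C(D)) (he : Abelem r Z)
    (hN : ∀ x ∈ D, x ∈ N ↔ ⁅⟪x⟫, D⁆ ≤ K) (hQ : Q ≤ C(Z)) : DualOn S.ρ (Q.subgroupOf L) := by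
  obtain ⟨T⟩ := H28.nonempty_secRep r (M := ⊥) (inf_le_left : Z ⊓ K ≤ Z) ((ab_iff_der.1 he.ab).le.trans bot_le)
    (fun x hx => he.pow hx ▸ one_mem _) bot_le bot_le
  choose s s1 s2 using S.surj
  have c1 : ∀ a ∈ D, ∀ b ∈ D, ⁅a, b⁆ ∈ Z := fun a ha b hb => hz (commutator_mem_commutator ha hb)
  have c2 := comm_mul_of_cl2 (le_inf (der_le D) (hz.trans hZ))
  have c3 : ∀ a ∈ D, ∀ b ∈ D, ∀ c ∈ D, ⁅c, a * b⁆ = ⁅c, a⁆ * ⁅c, b⁆ := fun a ha b hb c hc => by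
    rw [← commutatorElement_inv, c2 a ha b hb c hc, mul_inv_rev, commutatorElement_inv, commutatorElement_inv]
  have c4 : ∀ a ∈ D, ∀ b ∈ D, T.π ⁅s (S.π a), b⁆ = T.π ⁅a, b⁆ := fun a ha b hb => by
    have h1 := (S.eq_iff (s1 _) ha).1 (s2 _)
    have h2 := S.le h1
    rw [← inv_mul_cancel_right (s (S.π a)) a, c2 _ h2 a ha b hb, T.map_mul _ (c1 a ha b hb) _ (c1 _ h2 b hb),
      (T.eq_zero _ (c1 _ h2 b hb)).2 ⟨c1 _ h2 b hb, (hN _ h2).1 h1 (commutator_mem_commutator (mem_zpowers _) hb)⟩,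
      add_zero]
  have c5 : ∀ a ∈ D, ∀ b ∈ D, T.π ⁅s (S.π a), s (S.π b)⁆ = T.π ⁅a, b⁆ := fun a ha b hb => by
    rw [c4 a ha _ (s1 _), ← commutatorElement_inv, T.map_inv (c1 _ (s1 _) a ha), c4 b hb a ha,
      ← T.map_inv (c1 b hb a ha), commutatorElement_inv]
  have a1 : ∀ v v' w, T.π ⁅s (v + v'), s w⁆ = T.π ⁅s v, s w⁆ + T.π ⁅s v', s w⁆ := fun v v' w => by
    conv_lhs => rw [← s2 v, ← s2 v', ← S.map_mul _ (s1 _) _ (s1 _), c4 _ (mul_mem (s1 _) (s1 _)) _ (s1 _)]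
    rw [c2 _ (s1 _) _ (s1 _) _ (s1 _), T.map_mul _ (c1 _ (s1 _) _ (s1 _)) _ (c1 _ (s1 _) _ (s1 _)), add_comm]
  have a2 : ∀ v w w', T.π ⁅s v, s (w + w')⁆ = T.π ⁅s v, s w⁆ + T.π ⁅s v, s w'⁆ := fun v w w' => by
    conv_lhs => rw [← s2 v, ← s2 w, ← s2 w', ← S.map_mul _ (s1 _) _ (s1 _), c5 _ (s1 _) _ (mul_mem (s1 _) (s1 _))]
    rw [c3 _ (s1 _) _ (s1 _) _ (s1 _), T.map_mul _ (c1 _ (s1 _) _ (s1 _)) _ (c1 _ (s1 _) _ (s1 _))]
  refine ⟨T.n, fun j => LinearMap.mk₂ (ZMod r) (fun v w => T.π ⁅s v, s w⁆ j) (fun v v' w => congrFun (a1 v v' w) j)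
    (fun c v w => congrFun (ZMod.map_smul (AddMonoidHom.mk' (fun v => T.π ⁅s v, s w⁆) (a1 · · w)) c v) j)
    (fun v w w' => congrFun (a2 v w w') j)
    (fun c v w => congrFun (ZMod.map_smul (AddMonoidHom.mk' (fun w => T.π ⁅s v, s w⁆) (a2 v)) c w) j),
    fun g hg j v w => ?_, fun v hv => ?_⟩
  · have := c1 _ (s1 v) _ (s1 w)
    change T.π ⁅s _, s _⁆ j = T.π ⁅s v, s w⁆ j
    conv_lhs => rw [← s2 v, ← s2 w, ← S.conj _ _ (s1 _), ← S.conj _ _ (s1 _), c5 _ (conj_mem (S.nrm g.2) (s1 _)) _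
      (conj_mem (S.nrm g.2) (s1 _)), ← conjugate_commutatorElement,
      ← mem_cen.1 (show (g : G) ∈ _ from hQ hg) _ this, mul_inv_cancel_right]
  · rw [← s2 v, S.eq_zero _ (s1 v), hN _ (s1 v)]
    refine (bg4_comm_zpowers_le (cents_norm (centsC (inf_le_left.trans hZ)) (s1 v)) fun b hb => ?_).trans
      (inf_le_right : Z ⊓ K ≤ K)
    rw [← T.eq_zero _ (c1 _ (s1 v) b hb), ← c5 _ (s1 v) b hb, s2]
    exact funext fun j => hv j _

theorem exists_sec_rep' (hr : r.Prime) (hXU : X ≤ U) (hX : M ≤ N(X)) (hU : M ≤ N(U)) (hd : ⁅U, U⁆ ≤ X)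
    (he : ∀ x ∈ U, x ^ r ∈ X) :
    ∃ (k : Type) (_ : Field k) (_ : IsAlgClosed k) (V : Type) (_ : AddCommGroup V) (_ : Module k V)
      (_ : FiniteDimensional k V) (Γ : Type u) (_ : Group Γ) (_ : Finite Γ) (ρ : Representation k Γ V) (f : M →* Γ),
      Injective ρ ∧ (∀ n : ℕ, ¬ r ∣ n → (n : k) ≠ 0) ∧ (∀ A, A ≤ M → (A ≤ pker f ↔ ⁅U, A⁆ ≤ X)) ∧
      (∀ A, A ≤ M → Cop X A → Sol X ∨ Sol A → X.relIndex (U ⊓ C(A)) = r ^ finrank k (rfix ρ (pmap f A))) ∧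
      ∀ Z K Q, ⁅U, U⁆ ≤ Z → Z ≤ C(U) → Abelem r Z → (∀ x ∈ U, x ∈ X ↔ ⁅⟪x⟫, U⁆ ≤ K) → Q ≤ C(Z) →
        DualOn ρ (pmap f Q) := by
  haveI := Fact.mk hr
  obtain ⟨S⟩ := H28.nonempty_secRep r hXU hd he hU hX
  obtain ⟨τ, hτ⟩ : ∃ τ, τ = bcRep (AlgebraicClosure (ZMod r)) S.ρ := ⟨_, rfl⟩
  refine ⟨AlgebraicClosure (ZMod r), inferInstance, inferInstance, _, inferInstance, inferInstance, inferInstance,
    M ⧸ MonoidHom.ker τ, inferInstance, inferInstance, quoRep τ _ le_rfl, QuotientGroup.mk' _,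
    (injective_iff_map_eq_one _).2 fun x => QuotientGroup.induction_on x fun y h => (QuotientGroup.eq_one_iff y).2 h,
    fun n hn => H28.natCast_ne_zero_of_algebra _ (H28.natCast_zmod_ne_zero hn), fun A hA => ?_,
    fun A hA hc hs => ?_, fun Z K Q a1 a2 a3 a4 a5 => ?_⟩
  · rw [commC, ← S.le_ker_iff hA, ← so_le_so' hA, pker_so, QuotientGroup.ker_mk', hτ, H28.ker_bcRep]
  · rw [pmap, H28.rfix_quoRep, hτ, H28.finrank_rfix_bcRep, S.relIndex_cent hA (hA.trans hX) hc.symm hs.symm]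
  · obtain ⟨n, B, b1, b2⟩ := hτ ▸ (SecRep_dualOn' S a1 a2 a3 a4 a5).bc (AlgebraicClosure (ZMod r))
    exact ⟨n, B, by rintro _ ⟨g, hg, rfl⟩; exact b1 g hg, b2⟩

variable [IsAlgClosed k] [FiniteDimensional k V]

theorem refl_contra (hf : Injective ρ) (hr : r.Prime) (h2 : r ≠ 2) (hk : (#R : k) ≠ 0) (hR : PGrp r R)
    (hb : b ∈ N(R)) (h4 : b ^ 4 = 1) (e : ⁅R, ⟪b ^ 2⟫⁆ = R) (hY : ⁅R, R⁆ ≤ C(R ⊔ ⟪b⟫)) (h1 : ⁅R, R⁆ ≠ ⊥)
    (hd : DualOn ρ ⁅R, R⁆) (hdim : finrank k V ≤ finrank k (rfix ρ ⟪b ^ 2⟫) + 2) (h3 : r = 3 → rfix ρ ⟪b⟫ = ⊥) :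
    False := by
  obtain ⟨z, hz⟩ : ∃ z, z = b ^ 2 := ⟨_, rfl⟩
  rw [← hz] at e hdim
  have z2 : z⁻¹ = z := inv_eq_of_mul_eq_one_right (by rw [hz, ← pow_add, h4])
  have zb : z ∈ ⟪b⟫ := hz ▸ pow_mem (mem_zpowers b) 2
  have nz := zpowers_le.2 hb zb
  have lY := der_le R
  have cY := centsS le_sup_left hY
  have aY := ab_iff.2 (centsS lY cY)
  have odd : ∀ X ≤ R, Odd #X := fun X hX => by
    obtain ⟨a, ha⟩ := (hR.mono hX).exists_pow (card_ne_zero X)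
    exact ha ▸ (hr.odd_of_ne_two h2).pow
  have cop : Cop R ⟪z⟫ := (Nat.coprime_two_right.2 (odd R le_rfl)).coprime_dvd_right
    (card_zpowers' z ▸ orderOf_dvd_of_pow_eq_one (by rw [hz, ← pow_mul, h4]))
  have hk' := H28.natCast_ne_zero_of_dvd hk (card_dvd lY)
  obtain ⟨c, c1, c2⟩ := exists_wt' hf aY hk' le_rfl h1
  obtain ⟨y, y1, y2⟩ := SetLike.not_le_iff_exists.1 c2
  have c3 := inv_ne c1 (odd _ lY) y1 y2
  have c4 := hd.inv hk' c1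
  have inv : ∀ c, RInv ρ (R ⊔ ⟪b⟫) (wsp ρ ⁅R, R⁆ c) := fun c => rInv_wsp (cen_le_wst (centsC hY))
  have iz := fun c => inv c z (mem_sup_right zb)
  have d1 : wsp ρ ⁅R, R⁆ c ⊔ rfix ρ ⟪z⟫ ≠ ⊤ := fun d => y2 (inv_mem_iff.1 ((wt_eq_one_iff c1 (inv_mem y1)).1
    ((wt_eq_one_iff c4 y1).2 ((e.ge.trans (comm_le_right (le_sup_left.trans (rInv_norms_rcent (inv _)))
      |>.trans' (commSS le_rfl (zpowers_le.2 fun v hv => ?_)))) (lY y1)))))
  swap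
  · obtain ⟨a, ha, p, hp, rfl⟩ := Submodule.mem_sup.1 (d.ge (Submodule.mem_top (x := v)))
    refine sub_eq_zero.1 (by_contra fun e => c3 (smul_left_injective k e (((sub_mem (iz _ _ hv) hv) y y1).symm.trans ?_)))
    rw [map_add, hp z (mem_zpowers z), add_sub_add_right_eq_sub]
    exact sub_mem (iz _ _ ha) ha y y1
  obtain ⟨W, hW⟩ : ∃ W, W = wsp ρ ⁅R, R⁆ c := ⟨_, rfl⟩
  have iW := hW ▸ inv c
  rw [← hW] at d1 c2
  have d2 : ∀ x ∈ R, finrank k W ≤ finrank k ↥(W ⊓ rfix ρ ⟪x * z * x⁻¹⟫) + 1 := fun x hx => by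
    have a1 := Submodule.finrank_sup_add_finrank_inf_eq W (rfix ρ ⟪z⟫)
    have a2 := Submodule.finrank_lt d1
    have a3 := Submodule.finrank_mono (show (W ⊓ rfix ρ ⟪z⟫).map (ρ x) ≤ W ⊓ rfix ρ ⟪x * z * x⁻¹⟫ by
      rintro _ ⟨v, hv, rfl⟩
      exact ⟨iW x (mem_sup_left hx) v hv.1, H28.mem_rfix_zpowers.2 (by
        rw [← End.mul_apply, ← map_mul, inv_mul_cancel_right, map_mul, End.mul_apply, hv.2 z (mem_zpowers z)])⟩)
    rw [← (Submodule.equivMapOfInjective _ (ρ.apply_bijective x).1 _).finrank_eq] at a3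
    omega
  have d3 : ∀ I J : Submodule k V, I ≤ W → J ≤ W → finrank k I + finrank k J ≤ finrank k ↥(I ⊓ J) + finrank k W :=
    fun I J a1 a2 => by
      have := Submodule.finrank_sup_add_finrank_inf_eq I J
      have := Submodule.finrank_mono (sup_le a1 a2)
      omega
  have cz : ∀ x ∈ R, ⁅x, z⁆ ∈ R := fun x hx => e ▸ commutator_mem_commutator hx (mem_zpowers z)
  have d4 : ∀ x ∈ R, ∀ x' ∈ R, ∀ v ∈ W, v ≠ 0 → ρ z v = v → ρ (x * z * x⁻¹) v = v → ρ (x' * z * x'⁻¹) v = v →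
      ⁅⁅x, z⁆, ⁅x', z⁆⁆ ∈ rcent ρ W := fun x hx x' hx' v hv v0 a1 a2 a3 => by
    have a4 : ∀ g, ρ g v = v → g ∈ rcent ρ (k ∙ v) := fun g hg w hw => by
      obtain ⟨t, rfl⟩ := Submodule.mem_span_singleton.1 hw
      rw [map_smul, hg]
    have a5 := commutator_mem_commutator (cz x hx) (cz x' hx')
    have a6 := der_le _ (commutator_mem_commutator (mul_mem (a4 _ a2) (inv_mem (a4 _ a1)))
      (mul_mem (a4 _ a3) (inv_mem (a4 _ a1)))) v (Submodule.mem_span_singleton_self v)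
    exact hW ▸ (wt_eq_one_iff c1 a5).1 (smul_left_injective k v0
      (((hW ▸ hv : v ∈ wsp ρ _ c) _ a5).symm.trans (a6.trans (one_smul k v).symm)))
  have nY := (der_nml R).nrm
  have d5 : ∀ u ∈ R, ∃ x ∈ R, ∃ y ∈ ⁅R, R⁆, u = ⁅x, z⁆ * y := fun u hu => by
    have n1 := norms_der (zpowers_le.2 nz) (mem_zpowers z)
    obtain ⟨g, g1, g2⟩ := H28.exists_comm_eq (K := R /ₛ ⁅R, R⁆) (x := coset(⁅R, R⁆, z))
      (quo_norms _ (zpowers_le.2 nz) (mem_quo_of_mem n1 (mem_zpowers z))) (fun g hg a => by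
        have := coprime_norm_quotient_cent1 nz n1 (card_zpowers' z ▸ cop.mono_left lY)
        rw [quo_eq_bot_of_le (by simpa [e, cen_zpowers] using coprime_cent_comm_le_der (zpowers_le.2 nz) cop)] at this
        exact this.ge ⟨hg, mem_cen1.2 a⟩) (mem_quo_of_mem (nY hu) hu)
    obtain ⟨x, hx, x1, rfl⟩ := mem_quo.1 g1
    rw [← coset_comm x1 n1, coset_eq_iff (nY (cz x hx)) (nY hu)] at g2
    exact ⟨x, hx, _, g2, by group⟩
  have m1 := comm_mul_of_cl2 (le_inf lY cY)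
  have m2 : ∀ a ∈ R, ∀ b ∈ R, ∀ c ∈ R, ⁅c, a * b⁆ = ⁅c, a⁆ * ⁅c, b⁆ := fun a ha b hb c hc => by
    rw [← commutatorElement_inv, m1 a ha b hb c hc, mul_inv_rev, commutatorElement_inv, commutatorElement_inv]
  have m3 : ∀ a ∈ R, ∀ b ∈ R, ∀ y ∈ ⁅R, R⁆, ∀ y' ∈ ⁅R, R⁆, ⁅a * y, b * y'⁆ = ⁅a, b⁆ := fun a ha b hb y hy y' hy' => by
    rw [m1 a ha y (lY hy) _ (mul_mem hb (lY hy')), m2 b hb y' (lY hy') a ha, commutatorElement_eq_one_iff_mul_comm.2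
      (mem_cen.1 (cY hy) _ (mul_mem hb (lY hy'))).symm, commutatorElement_eq_one_iff_mul_comm.2 (mem_cen.1 (cY hy') a ha),
      one_mul, mul_one]
  obtain ⟨x, hx, x', hx', d6⟩ : ∃ x ∈ R, ∃ x' ∈ R, ⁅⁅x, z⁆, ⁅x', z⁆⁆ ∉ rcent ρ W := by
    by_contra! a
    refine c2 (commutator_le.2 fun u hu w hw => ?_)
    obtain ⟨x, hx, y, hy, rfl⟩ := d5 u hu
    obtain ⟨x', hx', y', hy', rfl⟩ := d5 w hw
    exact m3 _ (cz x hx) _ (cz x' hx') y hy y' hy' ▸ a x hx x' hx'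
  have d7 : finrank k W ≤ 3 := by
    have a1 := d3 (W ⊓ rfix ρ ⟪1 * z * 1⁻¹⟫) (W ⊓ rfix ρ ⟪x * z * x⁻¹⟫) inf_le_left inf_le_left
    have a2 := d3 ((W ⊓ rfix ρ ⟪1 * z * 1⁻¹⟫) ⊓ (W ⊓ rfix ρ ⟪x * z * x⁻¹⟫)) (W ⊓ rfix ρ ⟪x' * z * x'⁻¹⟫)
      (inf_le_left.trans inf_le_left) inf_le_left
    have a3 : (W ⊓ rfix ρ ⟪1 * z * 1⁻¹⟫) ⊓ (W ⊓ rfix ρ ⟪x * z * x⁻¹⟫) ⊓ (W ⊓ rfix ρ ⟪x' * z * x'⁻¹⟫) = ⊥ :=
      (Submodule.eq_bot_iff _).2 fun v hv => by_contra fun v0 => d6 (d4 x hx x' hx' v hv.2.1 v0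
      (by simpa using hv.1.1.2 _ (mem_zpowers _)) (hv.1.2.2 _ (mem_zpowers _)) (hv.2.2 _ (mem_zpowers _)))
    rw [a3, finrank_bot] at a2
    have := d2 1 (one_mem R); have := d2 x hx; have := d2 x' hx'
    omega
  have l1 : ⁅R, R⁆ ⊔ ⟪⁅x, z⁆⟫ ≤ R := sup_le lY (zpowers_le.2 (cz x hx))
  have d8 := ito_ab hr (aY.sup (ab_zpowers _) (centsC (centsS (zpowers_le.2 (cz x hx)) cY)))
    (H28.natCast_ne_zero_of_dvd hk (card_dvd l1)) (hR.piElt (cz x' hx'))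
    ((nml_of_der_le le_sup_left l1).nrm (cz x' hx')) (iW.mono ((sup_le l1 (zpowers_le.2 (cz x' hx'))).trans le_sup_left))
    fun a => d6 (a (commutator_mem_commutator (mem_sup_right (mem_zpowers _)) (mem_zpowers _)))
  have r3 : r = 3 := by have := hr.two_le; omega
  have d9 : ∀ u ∈ R, ⁅u, b * u * b⁻¹⁆ ∈ rcent ρ W := fun u hu => by
    obtain ⟨x, hx, y, hy, rfl⟩ := d5 u hu
    have bz : b * z * b⁻¹ = z := by rw [hz]; group
    obtain ⟨v, hv, v0⟩ := Submodule.exists_mem_ne_zero_of_ne_bot (p := (W ⊓ rfix ρ ⟪1 * z * 1⁻¹⟫) ⊓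
        (W ⊓ rfix ρ ⟪x * z * x⁻¹⟫)) fun a => by
      have a1 := d3 (W ⊓ rfix ρ ⟪1 * z * 1⁻¹⟫) (W ⊓ rfix ρ ⟪x * z * x⁻¹⟫) inf_le_left inf_le_left
      rw [a, finrank_bot] at a1
      have := d2 1 (one_mem R); have := d2 x hx
      omega
    have a1 : ρ z v = v := by simpa using hv.1.2 _ (mem_zpowers _)
    have a2 : ρ b v = -v := eq_neg_of_add_eq_zero_left ((Submodule.eq_bot_iff _).1 (h3 r3) _
      (H28.mem_rfix_zpowers.2 (by rw [map_add, ← End.mul_apply, ← map_mul, ← sq, ← hz, a1, add_comm])))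
    have a3 := hv.2.2 _ (mem_zpowers _)
    have a4 : ρ b⁻¹ v = -v := by
      rw [eq_comm, ← (ρ.apply_bijective b).1.eq_iff, map_neg, a2, neg_neg, ← End.mul_apply, ← map_mul, mul_inv_cancel,
        map_one, End.one_apply]
    have a5 := d4 x hx _ (conj_mem hb hx) v hv.1.1 v0 a1 a3 (by
      rw [show b * x * b⁻¹ * z * (b * x * b⁻¹)⁻¹ = b * (x * (b⁻¹ * z * b) * x⁻¹) * b⁻¹ by group,
        show b⁻¹ * z * b = z by rw [hz]; group, map_mul, map_mul, End.mul_apply, End.mul_apply, a4, map_neg, a3,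
        map_neg, a2, neg_neg])
    rwa [← conj_mul, m3 _ (cz x hx) _ (conj_mem hb (cz x hx)) y hy _ (conj_mem (norms_der (zpowers_le.2 hb)
      (mem_zpowers b)) hy), conjugate_commutatorElement, bz]
  have hu := cz x hx
  have zu : b * (b * ⁅x, z⁆ * b⁻¹) * b⁻¹ = ⁅x, z⁆⁻¹ := by
    have : z * z = 1 := mul_eq_one_iff_inv_eq.2 z2
    calc _ = (b * b) * (x * z * x⁻¹) * ((b * b) * z)⁻¹ := by rw [commutatorElement_def]; group
      _ = _ := by rw [← sq, ← hz, this, commutatorElement_inv, commutatorElement_def, z2]; group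
  generalize ⁅x, z⁆ = u at hu zu d6
  have hw := conj_mem' hb (cz x' hx')
  rw [show ⁅x', z⁆ = b * (b⁻¹ * ⁅x', z⁆ * b) * b⁻¹ by group] at d6
  generalize b⁻¹ * ⁅x', z⁆ * b = w at hw d6
  have hu' := conj_mem hb hu
  have hw' := conj_mem hb hw
  have f1 := d9 _ (mul_mem hu hw)
  have f2 : ⁅w, b * u * b⁻¹⁆ = ⁅u, b * w * b⁻¹⁆ := by
    rw [← mul_inv_cancel_right ⁅w, _⁆ b, ← mem_cen.1 (hY (commutator_mem_commutator hw hu')) b
      (mem_sup_right (mem_zpowers b)), conjugate_commutatorElement, zu, ← commutatorElement_inv _ u, eq_inv_iff_mul_eq_one,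
      ← m2 _ (inv_mem hu) _ hu _ hw', inv_mul_cancel, commutatorElement_one_right]
  have cm := fun {x y} (hx : x ∈ R) (hy : y ∈ R) => commutator_mem_commutator hx hy
  have f3 := fun {y} (hy : y ∈ ⁅R, R⁆) => (hW ▸ wt_eq_one_iff c1 hy : c y = 1 ↔ y ∈ rcent ρ W)
  rw [← f3 (cm (mul_mem hu hw) (conj_mem hb (mul_mem hu hw))), ← conj_mul, m1 u hu w hw _ (mul_mem hu' hw'),
    wt_mul c1 (cm hw (mul_mem hu' hw')) (cm hu (mul_mem hu' hw')), m2 _ hu' _ hw' w hw, m2 _ hu' _ hw' u hu,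
    wt_mul c1 (cm hw hu') (cm hw hw'), wt_mul c1 (cm hu hu') (cm hu hw'), (f3 (cm hw hw')).2 (d9 w hw),
    (f3 (cm hu hu')).2 (d9 u hu), mul_one, one_mul, f2, ← wt_mul c1 (cm hu hw') (cm hu hw'), ← sq,
    f3 (pow_mem (cm hu hw') 2)] at f1
  exact d6 (mem_of_pow_mem f1 (Nat.coprime_two_left.2 ((odd _ lY).of_dvd_nat (orderOf_dvd_natCard _ (cm hu hw')))))

theorem cyc_cen1_le (hA : Cyc A) (pA : PGrp 2 A) (lT : T ≤ A) (cT : #T = 2) : ∀ y ∈ A, y ≠ 1 → C[y] ≤ C(T) :=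
  fun y hy y1 => cen_zpowers y ▸ cen_anti (hA.le_of_card_dvd lT (zpowers_le.2 hy)
    (cT ▸ (pA.mono (zpowers_le.2 hy)).dvd (zpowers_ne_bot' y1)))

theorem cyc_cents_ab (hf : Injective ρ) (hA : Cyc A) (pA : PGrp 2 A) (lT : T ≤ A) (cT : #T = 2) (h0 : rfix ρ A = ⊥)
    (hX : Ab X) (hk : (#X : k) ≠ 0) (hn : A ≤ N(X)) (hc : Cop X A) : T ≤ C(X) :=
  comm_eq_bot'.1 (eq_bot_iff.2 ((frob_rcent (H28.rInv_top ρ _) (normsR hn (hA.ab.norms lT)) (fun y a b =>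
    inf_eq_bot_mono (coprime_abel_cent_TI (lT.trans hn) (hc.mono_right lT) hX) le_rfl (cyc_cen1_le hA pA lT cT y a b))
    (H28.natCast_ne_zero_of_dvd hk (card_dvd (comm_le_left (lT.trans hn)))) (by rw [h0, inf_bot_eq])).trans
    (rcent_top hf).le))

theorem mers_level (hA : Cyc A) (pA : PGrp 2 A) (lT : T ≤ A) (cT : #T = 2) (hk : (#A : k) ≠ 0) (h0 : rfix ρ A = ⊥)
    (hq : q.Prime) (h2 : q ≠ 2) (hP : PGrp q P) (kP : (#P : k) ≠ 0) (nP : A ≤ N(P)) (nZ : A ≤ N(Z)) (hZ : Z ≤ P)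
    (hd : ⁅P, P⁆ ≤ Z) (hc : Z ≤ C(P)) (hcen : P ⊓ C(T) ≤ Z) (c1 : wsp ρ Z c ≠ ⊥)
    (c2 : ¬ ⁅P, P⁆ ≤ rcent ρ (wsp ρ Z c)) : #(A ⊓ wst Z c) = q + 1 ∧ 4 ∣ q + 1 ∧
      ∃ X : Subgroup G, (∀ x ∈ P, x ∈ X ↔ ⁅⟪x⟫, P⁆ ≤ rcent ρ (wsp ρ Z c)) ∧ X.relIndex P = q ^ 2 := by
  have lB : A ⊓ wst Z c ≤ A := inf_le_left
  obtain ⟨d, X, d1, -, d3, d4, d5⟩ := hh_core c1 (rInv_wsp (sup_le (cen_le_wst (centsC hc)) inf_le_right)) (hA.mono lB)
    (lB.trans nP) (hP.cop_of_ne (pA.mono lB) h2) hZ hd le_rfl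
    (fun y a b => (inf_le_inf_left _ (cyc_cen1_le hA pA lT cT y a.1 b)).trans hcen) kP
    (H28.natCast_ne_zero_of_dvd hk (card_dvd lB)) (wsp_fix nZ hk h0 c) c2
  obtain ⟨m, rfl⟩ := exists_pow_of_sq hq (d4 ▸ hP.relIndex X) (d4 ▸ (relIndex_pos X P).ne')
  obtain ⟨j, hj⟩ := (pA.mono lB).card
  have m0 : m ≠ 0 := fun e => d1.not_ge (relIndex_eq_one.1 (by rw [← d4, e]; rfl))
  rw [hj] at d5 ⊢
  have j0 : j ≠ 0 := fun e => by have := Nat.pow_pos (n := m) hq.pos; rw [e] at d5; omega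
  obtain ⟨-, rfl, a, b⟩ | ⟨a, -⟩ | ⟨a, -⟩ := S3784.result 2 q j m Nat.prime_two hq (by omega) (by omega) d5.symm
  · exact ⟨b.symm, b ▸ pow_dvd_pow 2 a.two_le, X, d3, by rw [← d4, pow_one]⟩
  · exact absurd a h2
  · exact absurd (a ▸ dvd_pow_self 2 j0) (by decide)

theorem level_two (hf : Injective ρ) (hA : Cyc A) (pA : PGrp 2 A) (hb : b ∈ A) (o4 : #⟪b⟫ = 4) (lT : T ≤ A)
    (cT : #T = 2) (hk : (#A : k) ≠ 0) (h0 : rfix ρ A = ⊥) (hr : r.Prime) (h2 : r ≠ 2) (hR : PGrp r R)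
    (kR : (#R : k) ≠ 0) (nR : A ≤ N(R)) (e : ⁅R, T⁆ = R) (h1 : R ≠ ⊥) (hmin : ∀ X < R, A ≤ N(X) → X ≤ C(T)) :
    ⁅R, R⁆ ≠ ⊥ ∧ ⁅R, R⁆ ≤ C(R ⊔ ⟪b⟫) ∧ (rfix ρ ⁅R, R⁆ = ⊥ → r = 3 → rfix ρ ⟪b⟫ = ⊥) := by
  have cop := hR.cop_of_ne pA h2
  have h3 : ¬ T ≤ C(R) := fun a => h1 (e ▸ comm_eq_bot'.2 a)
  obtain ⟨-, b2, b3, -⟩ := H28.minimal_action nR (hA.ab.norms lT) lT (cop.mono_right lT).symm hR.sol h3 hmin
  have lY := der_le R
  have cY := (le_inf lY b2).trans b3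
  have aY := ab_iff.2 (centsS lY cY)
  have kY := H28.natCast_ne_zero_of_dvd kR (card_dvd lY)
  have lb := zpowers_le.2 hb
  have lev := fun c c1 c2 => mers_level (c := c) hA pA lT cT hk h0 hr h2 hR kR nR (norms_der nR) lY le_rfl cY
    (by simpa [e] using coprime_cent_comm_le_der (lT.trans nR) (cop.mono_right lT)) c1 c2
  have cb : ⁅R, R⁆ ≤ C(⟪b⟫) := comm_eq_bot.1 (by_contra fun a => by
    obtain ⟨c, c1, c2⟩ := exists_wt' hf aY kY (comm_le_left (lb.trans (norms_der nR))) a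
    obtain ⟨a1, a2, -⟩ := lev c c1 fun a => c2 ((comm_le_left (lb.trans (norms_der nR))).trans a)
    exact c2 (comm_wst_le le_rfl (rInv_wsp ((hA.le_of_card_dvd lb inf_le_left (by rwa [o4, a1])).trans inf_le_right))))
  refine ⟨fun a => h3 (cyc_cents_ab hf hA pA lT cT h0 (ab_iff_der.2 a) kR nR cop), centsY cY cb,
    fun a r3 => by_contra fun a0 => ?_⟩
  obtain ⟨c, c1, c2⟩ := exists_wt (W := rfix ρ ⟪b⟫) (H28.rInv_rfix ρ (cents_norm cb)) aY kY le_rfl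
    fun d => a0 (eq_bot_of_le_rcent d (by rw [a, inf_bot_eq]))
  obtain ⟨a1, -⟩ := lev c (ne_bot_of_le_ne_bot c1 inf_le_right) fun a => c2 (a.trans (rcent_anti inf_le_right))
  exact c1 (eq_bot_iff.2 ((le_inf inf_le_right (inf_le_left.trans (H28.rfix_anti ρ (hA.le_of_card_dvd inf_le_left lb
    (by rw [o4, a1, r3]))))).trans (wsp_fix (norms_der nR) hk h0 c).le))

omit [IsAlgClosed k] [FiniteDimensional k V] in
theorem exists_tower (hs : Sol H) (hn : A ≤ N(H)) (hc : Cop H A) (lT : T ≤ A) (h : ¬ ⁅H, T⁆ ≤ F(H)) :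
    ∃ (q r : ℕ) (Q S : Subgroup G), q.Prime ∧ r.Prime ∧ q ≠ r ∧ PGrp q Q ∧ PGrp r S ∧ Q ≤ F(H) ∧ S ≤ H ∧ A ≤ N(S) ∧
      H ⊔ A ≤ N(Q) ∧ ¬ ⁅S, T⁆ ≤ C(Q) := by
  have hH := nml_sup_left hn
  have nF := hH.fitting
  have nT := (lT.trans le_sup_right).trans nF.nrm
  obtain ⟨r, hr, h1⟩ : ∃ r, r.Prime ∧ ¬ O[{r}](H /ₛ F(H)) ≤ C(T /ₛ F(H)) := by
    by_contra! a
    exact h ((quo_cents_iff (fitting_nrm H) nT).1 (centsC (coprime_cent_Fitting (quo_norms _ (lT.trans hn))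
      ((hc.mono_right lT).quo _) (hs.quo _) (centsC (fitting_le_of_forall_pcore a)))))
  have nU := qpre_nml nF ((hH.quo F(H)).pcore {r})
  have lU : qpre(F(H), O[{r}](H /ₛ F(H))) ≤ H := qpre_le_of_le_quo (fitting_le H) (pcore_le _ _)
  have iU : PiNat {r} (F(H).relIndex qpre(F(H), O[{r}](H /ₛ F(H)))) := by
    rw [relIndex_qpre_self]; exact pcore_pi _ _
  rw [← quo_qpre O[{r}](H /ₛ F(H))] at h1
  have lF := le_qpre O[{r}](H /ₛ F(H))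
  generalize qpre(F(H), O[{r}](H /ₛ F(H))) = U at *
  obtain ⟨S, hS, nS⟩ := coprime_Sylow_exists r (le_sup_right.trans nU.nrm) (hc.mono_left lU) (.inl (hs.mono lU))
  have lS := hS.le.trans lU
  have e := hS.sup_eq_of_relIndex lF iU
  have nN := nF.pcore {r}ᶜ
  have h2 : U ≤ O[{r}ᶜ](F(H)) ⊔ S := e.ge.trans (sup_le ((fitting_dp r H).sup.ge.trans (sup_le ((hS.ge_of_nml
    (pcore_pi _ _) ⟨(pcore_le_fitting r H).trans lF, lU.trans (pcore_nrm _ H)⟩).trans le_sup_right) le_sup_left))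
    le_sup_right)
  have pN := pcore_pi {r}ᶜ F(H)
  have lN := pcore_le {r}ᶜ F(H)
  generalize O[{r}ᶜ](F(H)) = N at *
  have nU' := nU.le.trans nN.nrm
  obtain ⟨q, hq, h3⟩ : ∃ q, q.Prime ∧ ¬ O[{q}](N) ≤ C(⁅S, T⁆) := by
    by_contra! a
    have a1 := (nU.subcent nN.nrm).mono (inf_le_left.trans lU) le_sup_left
    refine h1 (e ▸ (quo_cents_iff (e.le.trans (lU.trans (fitting_nrm H))) nT).2 (comm_sup_le (e.le.trans (lU.trans
      (fitting_nrm H))) (comm_le_left nT) ((le_inf ((comm_le_left (lT.trans nS)).trans hS.le) (centsC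
        (((fitting_nil H).mono lN).fitting_eq ▸ fitting_le_of_forall_pcore a))).trans (fitting_max a1
          (nil_of_quo_center (K := U ⊓ C(N) ⊓ N) (le_inf inf_le_left (inf_le_right.trans (centsC inf_le_right))) ?_)))))
    exact (((hS.pi.quo N).mono ((quo_le_quo (inf_le_left.trans nU') (hS.le.trans nU')).2
      (inf_le_left.trans h2))).quo_mono (inf_le_left.trans nU') (normsI (le_nrm _) (inf_le_left.trans nU')) le_rfl).nil
  exact ⟨q, r, _, S, hq, hr, fun a => h3 (by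
    rw [((pcore_pi _ _).eq_bot (a ▸ pN.mono (pcore_le _ _)) : O[{q}](N) = ⊥)]; exact bot_le), pcore_pi _ _, hS.pi,
    (pcore_le _ _).trans lN, lS, nS, norms_pcore _ nN.nrm, mt centsC h3⟩

/-- **Gross** -/
theorem FPF.comm_le_fitting (h : FPF ρ H A) (hA : Cyc A) (pA : PGrp 2 A) (lT : T ≤ A) (cT : #T = 2) :
    ⁅H, T⁆ ≤ F(H) := by
  by_contra hne
  have p2 := Nat.prime_two
  by_cases h4 : 4 ∣ #A
  swap
  · obtain ⟨j, hj⟩ := pA.card
    obtain rfl : T = A := eq_of_le_of_card_ge lT (by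
      rw [hj, cT]
      exact Nat.pow_le_pow_right two_pos (by_contra fun a => h4 (hj ▸ pow_dvd_pow 2 (by omega : 2 ≤ j)) : j ≤ 1))
    exact hne ((comm_le_left h.nrm).trans (prime_Frobenius_sol_kernel_nil h.nrm h.sol (cT ▸ p2) h.cen).fitting_eq.ge)
  obtain ⟨B₄, lb, o4⟩ := hA.exists_card h4
  obtain ⟨b, rfl⟩ := cyc_iff.1 (hA.mono lb)
  have hb := zpowers_le.1 lb
  have ob : orderOf b = 4 := (card_zpowers' b).symm.trans o4
  have l2 : ⟪b ^ 2⟫ ≤ ⟪b⟫ := zpowers_le.2 (pow_mem (mem_zpowers b) 2)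
  obtain rfl : T = ⟪b ^ 2⟫ := hA.eq_of_card_eq lT (l2.trans lb) (by rw [cT, card_zpowers', orderOf_pow, ob]; rfl)
  obtain ⟨T, hT⟩ : ∃ T, T = ⟪b ^ 2⟫ := ⟨_, rfl⟩
  rw [← hT] at lT cT hne l2
  have nT := hA.ab.norms lT
  have odd : ∀ {q} {X : Subgroup G}, PGrp q X → X ≤ H → X ≠ ⊥ → q ≠ 2 := fun a1 a2 a3 a4 =>
    coprime_iff_forall.1 h.cop 2 p2 ((a4 ▸ a1.dvd a3).trans (card_dvd a2)) (cT ▸ card_dvd lT)
  obtain ⟨q, r, Q, S, hq, hr, hqr, pQ, pS, lQ, lS, nS, nQ, h1⟩ := exists_tower h.sol h.nrm h.cop lT hne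
  obtain ⟨R, a1, ⟨nR, a3⟩, a4⟩ := exists_min (fun X => A ≤ N(X) ∧ ¬ ⁅X, T⁆ ≤ C(Q)) ⟨nS, h1⟩
  have lR := a1.trans lS
  have pR := pS.mono a1
  have cR := h.cop.mono lR lT
  have eR : ⁅R, T⁆ = R := a4 _ ⟨normsR nR nT, by rwa [coprime_commGid (lT.trans nR) cR]⟩ (comm_le_left (lT.trans nR))
  have r2 := odd pR lR fun e => a3 (by rw [e, commutator_bot_left]; exact bot_le)
  obtain ⟨D, l1, nD, h3, hmin, eD, h5, h6⟩ := min_action ((sup_le_sup_right lR A).trans nQ) (sup_le (le_nrm R) nR)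
    le_sup_left (pQ.cop_of_ne pR hqr) pQ.sol (eR ▸ a3)
  have lF := l1.trans lQ
  have lD := lF.trans (fitting_le H)
  have pD := pQ.mono l1
  obtain ⟨nRD, nAD⟩ := sup_le_iff.1 nD
  have fA : ∀ X ≤ D, Ab X → A ≤ N(X) → T ≤ C(X) := fun X a b c => cyc_cents_ab h.inj hA pA lT cT h.fix b
    (h.hQ (a.trans lF)) c (h.cop.mono_left (a.trans lD))
  obtain ⟨h6, -⟩ | ⟨h6, h7⟩ := h6
  · exact h3 (eR ▸ (commSS le_rfl (fA D le_rfl h6 nAD)).trans (comm_le_right (norms_cent nRD)))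
  have d0 : D ≠ ⊥ := ne_bot_of_le (der_le D) h7
  have q2 := odd pD lD d0
  have nZ := norms_center nD
  have lZ : Z(D) ≤ D := inf_le_left
  have cT' := fA _ lZ (ab_center D) (le_sup_right.trans nZ)
  have cRZ : R ≤ C(Z(D)) := centsC (h6.le.trans inf_le_right)
  have he : ∀ x ∈ D, x ^ q ∈ Z(D) := fun x hx => have := pD.pow_mem_Phi hx
    h6 ▸ ⟨Phi_le D this, hmin _ (Phi_lt d0) (norms_Phi nD) this⟩
  have nq : ∀ {p} {Γ : Type u} [Group Γ] {X : Subgroup Γ}, PGrp p X → q ≠ p → ¬ q ∣ #X := fun a b c => b (a.mem hq c)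
  have z0 : ∀ {n}, 1 = q ^ n → n = 0 := fun a => (Nat.pow_eq_one.1 a.symm).resolve_left hq.ne_one
  have lY := der_le R
  obtain ⟨g1, g2, g3⟩ : D ⊓ C(⁅R, R⁆) ≤ Z(D) ∧ ⁅D, ⁅⁅R, R⁆, R ⊔ ⟪b⟫⁆⁆ ≤ Z(D) ∧ (r = 3 → D ⊓ C(⟪b⟫) ≤ Z(D)) := by
    obtain ⟨k', _, _, V', _, _, _, Γ, _, _, σ, f, sf, hk', hker, hfix, -⟩ := exists_sec_rep' hq lZ nZ nD h5 he
    have lR' : R ≤ R ⊔ A := le_sup_left
    have lA' : A ≤ R ⊔ A := le_sup_right
    have b1 : ¬ R ≤ pker f := fun a => h7 (comm_eq_bot.2 ((eD.ge.trans ((hker R lR').1 a)).trans inf_le_right))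
    have b2 := pmap_comm f lR' (lT.trans lA')
    rw [eR] at b2
    have b3 : pker f ⊓ A = ⊥ := by_contra fun a => b1 ((pmap_eq_bot lR').1 (by
      rw [b2, pmap_eq_bot_of_le ((hA.le_of_card_dvd lT inf_le_right (cT ▸ (pA.mono inf_le_right).dvd a)).trans
        inf_le_left), commutator_bot_right]))
    have b4 : ∀ X ≤ A, #(pmap f X) = #X := fun X a => card_pmap_of_inf (a.trans lA') (inf_eq_bot_mono b3 le_rfl a)
    have fx : ∀ X ≤ R ⊔ A, Cop Z(D) X → (D ⊓ C(X) ≤ Z(D) ↔ rfix σ (pmap f X) = ⊥) := fun X a b => by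
      rw [← relIndex_eq_one, hfix X a b (.inl (ab_center D).sol), Nat.pow_eq_one, or_iff_right hq.ne_one,
        Submodule.finrank_eq_zero]
    have cZ := h.cop.mono_left (lZ.trans lD)
    obtain ⟨c1, c2, c3⟩ := level_two (b := pfun f b) sf (hA.pmap f) (pA.pmap f) (mem_pmap_of_mem f (lA' hb) hb)
      (by rw [← pmap_zpowers f (lA' hb), b4 _ lb, o4]) (pmap_mono f lT) (by rw [b4 _ lT, cT])
      (hk' _ (nq (pA.pmap f) q2)) ((fx A lA' cZ).1 ((h.inf_cen lD).le.trans bot_le)) hr r2 (pR.pmap f)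
      (hk' _ (nq (pR.pmap f) hqr)) (pmap_norms f nR) b2.symm (mt (pmap_eq_bot lR').1 b1) fun X x1 x2 => by
        have x3 : R ⊓ ppre f X ≤ R := inf_le_left
        have x4 := pmap_inf_ppre_of_le x1.le
        refine x4.ge.trans <| (pmap_cents_iff (x3.trans lR') (lT.trans lA')).2 ((hker _ (comm_le_of_le (x3.trans lR')
          (lT.trans lA'))).2 ((comm_eq_bot'.2 (centsS l1 (by_contra fun a => x1.ne (x4.symm.trans (congrArg _ (a4 _
            ⟨normsI nR (norms_ppre lA' x2), a⟩ x3)))))).le.trans bot_le))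
    have lb' := lb.trans lA'
    rw [← pmap_comm f lR' lR', ← pmap_zpowers f (lA' hb)] at c2 c3
    rw [← pmap_comm f lR' lR'] at c1
    have g1 : D ⊓ C(⁅R, R⁆) ≤ Z(D) := h6 ▸ le_inf inf_le_left (hmin _ (inf_lt_left.2 fun a => c1 (pmap_eq_bot_of_le
      ((hker _ (lY.trans lR')).2 ((comm_eq_bot.2 a).le.trans bot_le)))) (norms_subcent nD (norms_der
        (sup_le (le_nrm R) nR))))
    rw [← pmap_sup f lR' lb', pmap_cents_iff (lY.trans lR') (sup_le lR' lb'), hker _ (comm_le_of_le (lY.trans lR')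
      (sup_le lR' lb'))] at c2
    exact ⟨g1, c2, fun a => (fx _ lb' (cZ.mono_right lb)).2 (c3 ((fx _ (lY.trans lR')
      ((pD.mono lZ).cop_of_ne (pR.mono lY) hqr)).1 g1) a)⟩
  obtain ⟨c, c1, c2⟩ := exists_wt' h.inj (ab_center D) (h.hQ (lZ.trans lF)) h5 h7
  obtain ⟨K, hK⟩ : ∃ K, K = rcent ρ (wsp ρ Z(D) c) := ⟨_, rfl⟩
  have nK : ∀ X ≤ wst Z(D) c, X ≤ N(K) := fun X a => hK ▸ rInv_norms_rcent (rInv_wsp a)
  have kD := nK D (cen_le_wst (le_cen_center le_rfl))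
  obtain ⟨N, hN⟩ : ∃ N, N = D ⊓ qpre(K, C(D /ₛ K)) := ⟨_, rfl⟩
  have mN : ∀ X ≤ D, X ≤ N ↔ ⁅X, D⁆ ≤ K := fun X a => by rw [hN, le_inf_iff, le_qpre_cen kD]; simp [a, a.trans kD]
  have nN : ∀ X ≤ wst Z(D) c, X ≤ N(D) → X ≤ N(N) := fun X a b =>
    hN ▸ normsI b (norms_qpre (nK X a) (norms_cent (quo_norms K b)))
  have lN : N ≤ D := hN ▸ inf_le_left
  have zN : Z(D) ≤ N := (mN _ lZ).2 ((comm_eq_bot.2 inf_le_right).le.trans bot_le)
  have n0 : ¬ D ≤ N := fun a => c2 (hK ▸ (mN D le_rfl).1 a)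
  have nDN := nN D (cen_le_wst (le_cen_center le_rfl)) (le_nrm D)
  have nRN := nN R (cen_le_wst cRZ) nRD
  have nTD := lT.trans nAD
  have l3 : ⁅D, T⁆ ⊔ Z(D) ≤ D := sup_le (comm_le_left nTD) lZ
  have hm : MulEq (⁅D, T⁆ ⊔ Z(D)) (D ⊓ C(T)) D := (coprime_cent_prod nTD (h.cop.mono lD lT) pD.sol).mono
    le_sup_left l3 le_rfl inf_le_left
  have orth : ⁅D, T⁆ ⊔ Z(D) ≤ C(D ⊓ C(T)) := sup_le (comm_eq_bot.1 (three_subgroup
    (by rw [comm_eq_bot'.2 inf_le_right, commutator_bot_left])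
    (comm_eq_bot'.2 (centsS ((commSS inf_le_left le_rfl).trans h5) cT')))) (center_le_cen inf_le_left)
  have rad : ∀ X ≤ ⁅D, T⁆ ⊔ Z(D), ⁅X, ⁅D, T⁆ ⊔ Z(D)⁆ ≤ K → X ≤ N := fun X a b => (mN X (a.trans l3)).2
    ((commSS le_rfl hm.sup.ge).trans (comm_sup_le' (hm.sup.le.trans kD) b ((comm_eq_bot.2 (a.trans orth)).le.trans bot_le)))
  generalize hP : ⁅D, T⁆ ⊔ Z(D) = P at l3 hm orth rad
  obtain ⟨e1, e2, X, e3, e4⟩ := mers_level (P := P) hA pA lT cT h.hA h.fix hq q2 (pD.mono l3) (h.hQ (l3.trans lF))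
    (hP ▸ normsY (normsR nAD nT) (le_sup_right.trans nZ)) (le_sup_right.trans nZ) (hP ▸ le_sup_right)
    ((der_mono l3).trans h5) (center_le_cen l3) (le_inf (inf_le_left.trans l3) (hm.sup ▸ centsY
      (centsC (centsS (inf_le_inf_right _ l3) orth)) (inf_le_left.trans orth))) c1 fun a => n0 (eD.ge.trans (eR ▸
        comm_comm_le nDN nRD nRN (nN T (cen_le_wst cT') nTD) ((hP ▸ le_sup_left :).trans (rad P le_rfl (hK ▸ a)))))
  have wb : ⟪b⟫ ≤ wst Z(D) c := (hA.le_of_card_dvd lb inf_le_left (by rwa [o4, e1])).trans inf_le_right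
  have nM : R ⊔ ⟪b⟫ ≤ N(D) := sup_le nRD (lb.trans nAD)
  obtain ⟨k', _, _, V', _, _, _, Γ, _, _, σ, f, sf, hk', hker, hfix, hd⟩ := exists_sec_rep' hq lN
    (nN _ (sup_le (cen_le_wst cRZ) wb) nM) nM (h5.trans zN) fun x hx => zN (he x hx)
  have lR' : R ≤ R ⊔ ⟪b⟫ := le_sup_left
  have lb' : ⟪b⟫ ≤ R ⊔ ⟪b⟫ := le_sup_right
  have hb' := lb' (mem_zpowers b)
  have eT : ⟪pfun f b ^ 2⟫ = pmap f T := by rw [← pfun_pow f hb', ← pmap_zpowers f (pow_mem hb' 2), hT]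
  have sN := (pD.mono lN).sol
  have cN := h.cop.mono_left (lN.trans lD)
  have cY := pD.cop_of_ne (pR.mono lY) hqr
  refine refl_contra (b := pfun f b) sf hr r2 (hk' _ (nq (pR.pmap f) hqr)) (pR.pmap f)
    (pmap_nrm_le f R (mem_pmap_of_mem f hb' (nR hb))) (by rw [← pfun_pow f hb', ← ob, pow_orderOf_eq_one, pfun_one])
    (by rw [eT, ← pmap_comm f lR' (l2.trans lb'), eR]) ?_ ?_ ?_ ?_ fun a => ?_
  · rw [← pmap_comm f lR' lR', ← pmap_zpowers f hb', ← pmap_sup f lR' lb', pmap_cents_iff (lY.trans lR') le_rfl,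
      hker _ (comm_le_of_le (lY.trans lR') le_rfl)]
    exact g2.trans zN
  · rw [← pmap_comm f lR' lR', Ne, pmap_eq_bot (lY.trans lR'), hker _ (lY.trans lR')]
    exact fun a => n0 ((coprime_cent_prod (lY.trans nRD) cY pD.sol).sup.ge.trans (sup_le a (g1.trans zN)))
  · rw [← pmap_comm f lR' lR']
    refine hd Ω[q](Z(D)) K _ (commutator_le.2 fun x hx y hy => mem_Ohm (h5 (commutator_mem_commutator hx hy)) ?_)
      (Ohm_center_le_cen q le_rfl) (abelem_Ohm_center q D) (fun x hx => by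
        rw [← mN _ (zpowers_le.2 hx), zpowers_le]) (lY.trans (centsS (Ohm_le _ _) cRZ))
    rw [← H3.comm_pow_left (mem_cen.1 (h5 (commutator_mem_commutator hx hy)).2 x hx),
      commutatorElement_eq_one_iff_mul_comm, mem_cen.1 (he x hx).2 y hy]
  · have a1 := hfix ⊥ bot_le (cop_bot_right _) (.inl sN)
    rw [pmap_bot, H28.rfix_bot, finrank_top, cen_bot, inf_top_eq] at a1
    rw [← Nat.pow_le_pow_iff_right hq.one_lt, ← a1, pow_add, eT, ← hfix T (l2.trans lb') (cN.mono_right lT) (.inl sN),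
      ← e4, ← relIndex_mul (le_sup_left : N ≤ N ⊔ D ⊓ C(T)) (sup_le lN inf_le_left),
      relIndex_sup_norm (inf_le_left.trans nDN), (hm.mono le_rfl l3 le_sup_right
        (sup_le lN inf_le_left)).relIndex_right, ← inf_relIndex_right X]
    exact Nat.mul_le_mul_left _ (relIndex_le_of_le_left (fun x hx => mem_sup_left (zpowers_le.1 (rad _
      (zpowers_le.2 hx.2) (hK ▸ (e3 x hx.2).1 hx.1)))) (relIndex_pos _ _).ne')
  · rw [← pmap_zpowers f hb', ← Submodule.finrank_eq_zero]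
    exact z0 ((relIndex_eq_one.2 ((g3 a).trans zN)).symm.trans (hfix _ lb' (cN.mono_right lb) (.inl sN)))

omit [IsAlgClosed k] [FiniteDimensional k V] in
theorem fh_two (hA : Cyc A) (pA : PGrp 2 A) (n : ℕ) : ∀ H B : Subgroup G, Sol H → A ≤ N(H) →
    H ⊓ C(A) = ⊥ → B ≤ A → B ≤ C(H) → B.relIndex A = 2 ^ (n + 2) → nres^[2 * n + 2] H = ⊥ := by
  have hp := Nat.prime_two
  induction n with
  | zero =>
    intro H B hs hn h1 lB hB e
    refine nres_iter_succ_eq_bot.2 ((nres_le_lcs H 1).trans (by_contra fun h => ?_))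
    obtain ⟨k, _, _, V, _, _, _, Γ, _, _, ρ, f, hf, hne, hker⟩ := exists_fpf hs hn (cop_of_fpf pA hn h1) h1 (der_le H) h
    obtain ⟨a, ha⟩ := cyc_iff.1 (hA.pmap f)
    refine hne ((ab_pmap_iff le_sup_left).1 ((ha ▸ hf).ab_of_four (orderOf_dvd_iff_pow_eq_one.1 ?_)))
    rw [← card_zpowers', ← ha, card_pmap f le_sup_right]
    exact (relIndex_dvd_of_le (hker B lB hB) A).trans e.dvd
  | succ n ih =>
    intro H B hs hn h1 lB hB e
    obtain ⟨j, hj⟩ := (pA.mono lB).card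
    have e1 := FT.card_mul_relIndex lB
    rw [hj, e] at e1
    obtain ⟨T, t1, t2, t3⟩ := pA.exists_between (n := j + 1) hp lB (hj ▸ Nat.pow_le_pow_right hp.pos j.le_succ)
      (by rw [← e1, ← pow_add]; exact Nat.pow_le_pow_right hp.pos (by omega))
    have hc := cop_of_fpf pA hn h1
    have nT := t2.trans hn
    have lC := comm_le_left nT
    have h3 : nres ⁅H, T⁆ ≤ F(H) := by_contra fun h => by
      obtain ⟨k, _, _, V, _, _, _, Γ, _, _, ρ, f, hf, hne, hker⟩ := exists_fpf hs hn hc h1 ((nres_le _).trans lC) h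
      have lT := t2.trans (le_sup_right : A ≤ H ⊔ A)
      refine hne (nres_le_pker (lC.trans le_sup_left) ?_)
      have := relIndex_dvd_of_le (hker B lB hB) T
      rw [← card_pmap f lT, (H3.relIndex_eq_pow hp t1 t3 hj).2, Nat.add_sub_cancel_left, pow_one] at this
      rw [pmap_comm f le_sup_left lT]
      rcases (Nat.dvd_prime hp).1 this with e | e
      · rw [card_eq_one.1 e, commutator_bot_right]; exact nil_bot
      · exact (fitting_nil _).mono (hf.comm_le_fitting (hA.pmap f) (pA.pmap f) (pmap_mono f t2) e)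
    have h4 := nres_iter_le_sup (comm_nml_left nT).nrm inf_le_left (coprime_cent_prod nT (hc.mono_right t2) hs).sup.ge
      (2 * n + 2)
    rw [ih _ T (hs.mono inf_le_left) (norms_subcent hn (hA.ab.norms t2)) (inf_eq_bot_mono h1 inf_le_left le_rfl) t2
      (centsC inf_le_right) (by rw [(H3.relIndex_eq_pow hp t2 (e1.symm.trans (pow_add _ _ _).symm) t3).2]; congr 1; omega),
      sup_bot_eq] at h4
    refine nres_iter_succ_eq_bot.2 (le_trans ?_ h3)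
    rw [show 2 * (n + 1) + 1 = (2 * n + 2).succ from rfl, iterate_succ_apply']
    exact nres_mono h4

end Cfsg.Agent.H1
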