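import Cfsg.Agent.H1.HHB
import Cfsg.Agent.FT.BG04p

/-! The degree of an absolutely irreducible representation of a `q`-group. -/

set_option autoImplicit false
set_option linter.unusedSectionVars false
set_option linter.style.haveILetI false

namespace Cfsg.Agent.H1

open Cfsg Module Subgroup Cfsg.Agent.H28 Cfsg.Agent.FT Function

universe u v

variable {k : Type*} [Field k] [IsAlgClosed k] {q : ℕ}

theorem finrank_eq_one_of_ab {G : Type u} [Group G] [Finite G] {V : Type v} [AddCommGroup V] [Module k V]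
    [FiniteDimensional k V] {ρ : Representation k G V} {Q : Subgroup G} {U : Submodule k V}
    (h : RSimple ρ Q U) (hQ : Ab Q) : finrank k U = 1 := by
  obtain ⟨v, hv, h0⟩ := Submodule.exists_mem_ne_zero_of_ne_bot h.1
  rw [← (h.2.2 (k ∙ v) ((Submodule.span_singleton_le_iff_mem _ _).2 hv) fun g hg w hw => ?_).resolve_left
    (mt Submodule.span_singleton_eq_bot.1 h0), finrank_span_singleton h0]
  obtain ⟨c, hc⟩ := RSimple.scalar h le_rfl hQ.le_cen g hg
  exact hc w ((Submodule.span_singleton_le_iff_mem _ _).2 hv hw) ▸ Submodule.smul_mem _ _ hw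

theorem finrank_eq_pow (hq : q.Prime) (hk : (q : k) ≠ 0) (n : ℕ) : ∀ {G : Type u} [Group G] [Finite G]
    {V : Type v} [AddCommGroup V] [Module k V] [FiniteDimensional k V] (ρ : Representation k G V)
    (Q : Subgroup G) (U : Submodule k V), #Q ≤ n → PGrp q Q → RSimple ρ Q U → ∃ b, finrank k U = q ^ b := by
  classical
  induction n using Nat.strong_induction_on with | _ n ih =>
  suffices key : ∀ {G : Type u} [Group G] [Finite G] {V : Type v} [AddCommGroup V] [Module k V]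
      [FiniteDimensional k V] (ρ : Representation k G V) (Q : Subgroup G), #Q ≤ n → Injective ρ →
      PGrp q Q → RSimple ρ Q ⊤ → ∃ b, finrank k V = q ^ b by
    intro G _ _ V _ _ _ ρ Q U hn hQ hU
    obtain ⟨G', _, _, f, σ, a1, -, a3, -⟩ := exists_faithful_res hU.2.1
    haveI := Submodule.nontrivial_iff_ne_bot.2 hU.1
    refine key σ (pmap f Q) ((Nat.le_of_dvd (FT.card_pos Q) (card_pmap_dvd f Q)).trans hn) a1 (hQ.pmap f)
      ⟨top_ne_bot, rInv_top _ _, fun X _ hX => (hU.2.2 _ (Submodule.map_subtype_le U X) ?_).imp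
        (fun h => Submodule.map_injective_of_injective U.injective_subtype (by rw [h, Submodule.map_bot]))
        fun h => Submodule.map_injective_of_injective U.injective_subtype
          (by rw [h, Submodule.map_subtype_top])⟩
    rintro g hg _ ⟨w, hw, rfl⟩
    exact ⟨_, hX _ (mem_pmap_of_mem f hg hg) w hw, a3 g hg w⟩
  intro G _ _ V _ _ _ ρ Q hn hf hQ hs
  by_cases hab : Ab Q
  · exact ⟨0, by rw [← finrank_top, finrank_eq_one_of_ab hs hab, pow_zero]⟩
  obtain ⟨A, hA, -⟩ := exists_SCN_ge hQ (nml_bot Q) ab_bot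
  have hc : ¬ Q ≤ C(A) := fun e => hab (hA.ab.mono ((le_inf le_rfl e).trans hA.cen.le))
  obtain ⟨a, ha⟩ := (hQ.mono hA.nml.le).exists_pow (card_ne_zero A)
  obtain ⟨c, h1, -⟩ := exists_wt' hf hA.ab (by rw [ha, Nat.cast_pow]; exact pow_ne_zero a hk) le_rfl
    fun e => hc (comm_eq_bot'.1 (by rw [e, commutator_bot_left]))
  have h2 := rInv_wsp (ρ := ρ) (inf_le_right : Q ⊓ wst A c ≤ _)
  obtain ⟨W, h3, h4⟩ := exists_rSimple_le ρ _ h2 h1
  have h5 : Q ⊓ wst A c ≠ Q := fun e => hc (comm_eq_bot'.1 (eq_bot_iff.2 ((comm_wst_le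
    ((hs.2.2 _ le_top (e ▸ h2)).resolve_left h1).ge (rInv_top ρ Q)).trans (rcent_top hf).le)))
  obtain ⟨b, hb⟩ := ih _ ((card_lt (lt_of_le_of_ne inf_le_left h5)).trans_le hn) ρ _ W le_rfl
    (hQ.mono inf_le_left) h4
  letI := Fintype.ofFinite (Q ⧸ (wst A c).subgroupOf Q)
  let Φ : ((Q ⧸ (wst A c).subgroupOf Q) → W) →ₗ[k] V := ∑ i, ρ i.out ∘ₗ W.subtype ∘ₗ LinearMap.proj i
  have h6 : ∀ w, Φ w = ∑ i, ρ i.out (w i) := fun w => LinearMap.sum_apply _ _ _
  have h7 : Injective Φ := (injective_iff_map_eq_zero _).2 fun w hw => funext fun i => by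
    rw [h6, ← Finset.add_sum_erase _ _ (Finset.mem_univ i)] at hw
    have := wsp_indep (fun j : Q ⧸ (wst A c).subgroupOf Q => wcj (j.out : G) c) _ (fun j hj => by
      by_contra! e
      refine Finset.ne_of_mem_erase hj ?_
      rw [← j.out_eq', ← i.out_eq', QuotientGroup.eq]
      exact ⟨hA.nml.nrm (mul_mem (inv_mem j.out.2) i.out.2), fun z hz => by
        simpa [wcj, mul_assoc] using e _ (conj_mem (hA.nml.nrm i.out.2) hz)⟩) _ _
      (fun j _ => map_mem_wsp (hA.nml.nrm j.out.2) (h3 (w j).2)) (map_mem_wsp (hA.nml.nrm i.out.2)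
        (h3 (w i).2)) hw
    exact Subtype.ext ((ρ.apply_bijective _).1 (this.trans (map_zero _).symm))
  have h8 : ∀ g ∈ Q, ∀ w ∈ W, ρ g w ∈ LinearMap.range Φ := fun g hg w hw => by
    obtain ⟨z, hz⟩ := QuotientGroup.mk_out_eq_mul ((wst A c).subgroupOf Q) ⟨g, hg⟩
    refine ⟨Pi.single (QuotientGroup.mk ⟨g, hg⟩) ⟨_, h4.2.1 _ (inv_mem ⟨z.1.2, z.2⟩) w hw⟩, ?_⟩
    rw [h6, Finset.sum_eq_single_of_mem _ (Finset.mem_univ _) fun j _ e => by
      rw [Pi.single_eq_of_ne e, Submodule.coe_zero, map_zero],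
      Pi.single_eq_same, hz]
    simp
  have h9 : LinearMap.range Φ = ⊤ := (hs.2.2 _ le_top (by
    rintro g hg _ ⟨w, rfl⟩
    rw [h6, map_sum]
    exact Submodule.sum_mem _ fun i _ => by
      rw [← End.mul_apply, ← map_mul]; exact h8 _ (mul_mem hg i.out.2) _ (w i).2)).resolve_left fun e =>
    h4.1 (eq_bot_iff.2 fun w hw => by simpa [e] using h8 1 (one_mem _) w hw)
  obtain ⟨d, hd⟩ := (hQ.piNat.of_dvd (relIndex_dvd_card (wst A c) Q)).exists_pow (relIndex_pos _ _).ne'
  refine ⟨d + b, ?_⟩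
  rw [← (LinearEquiv.ofBijective Φ ⟨h7, LinearMap.range_eq_top.1 h9⟩).finrank_eq, finrank_pi_fintype,
    Finset.sum_const, hb, Finset.card_univ, ← Nat.card_eq_fintype_card, pow_add, ← hd]
  rfl

end Cfsg.Agent.H1
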