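import Cfsg.Agent.H1.HHR
import Cfsg.Agent.FT.BG04p

/-! The Hall–Higman bound `l_p ≤ 2 e_p` for odd `p`. -/

set_option autoImplicit false
set_option linter.unusedSectionVars false
set_option linter.style.haveILetI false

namespace Cfsg.Agent.H1

open Cfsg Module Subgroup Cfsg.Agent.H28 Cfsg.Agent.FT Function
open scoped commutatorElement

universe u

variable {G : Type u} [Group G] [Finite G] {p q : ℕ} {D P X : Subgroup G} {y : G}

/-- `y ∈ ⟨g⟩` centralises the abelian `g`-invariant subgroups of `D` -/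
def ExY (p : ℕ) (P D : Subgroup G) (y : G) : Prop :=
  y ^ p = 1 ∧ ∃ g ∈ P, y ∈ ⟪g⟫ ∧ ∀ B ≤ D, Ab B → g ∈ N(B) → y ∈ C(B)

theorem ExY.mem (h : ExY p P D y) : y ∈ P := let ⟨_, _, h1, h2, _⟩ := h; zpowers_le.2 h1 h2
theorem ExY.mono (h : ExY p P D y) (hX : X ≤ D) : ExY p P X y :=
  ⟨h.1, h.2.imp fun _ h => ⟨h.1, h.2.1, fun B hB => h.2.2 B (hB.trans hX)⟩⟩

theorem exY_comm (hp : p.Prime) (h2 : p ≠ 2) (hne : q ≠ p) (μ : ℕ) : ∀ {G : Type u} [Group G] [Finite G]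
    (P D : Subgroup G) (y z : G), #D + #P = μ → PGrp p P → PGrp q D → P ≤ N(D) → ExY p P D y → ExY p P D z →
    ⁅y, z⁆ ∈ C(D) := by
  induction μ using Nat.strong_induction_on with | _ μ ih =>
  intro G _ _ P D y z hμ hP hD hn hy hz
  have hc : ⁅y, z⁆ ∈ P := mul_mem (mul_mem (mul_mem hy.mem hz.mem) (inv_mem hy.mem)) (inv_mem hz.mem)
  have cop := hD.cop_of_ne hP hne
  by_cases hf : P ⊓ C(D) = ⊥
  swap
  · have n1 := subcent_nml hn
    have n2 : D ≤ N(P ⊓ C(D)) := cents_norm (centsC inf_le_right)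
    have i1 : D ⊓ (P ⊓ C(D)) = ⊥ := (cop.mono le_rfl inf_le_left).inf
    have key : ∀ y, ExY p P D y → ExY p (P /ₛ (P ⊓ C(D))) (D /ₛ (P ⊓ C(D))) (coset(P ⊓ C(D), y)) := by
      rintro y ⟨a1, g, a2, a3, a4⟩
      have a5 := n1.nrm a2
      have a6 := zpowers_le.2 a5 a3
      refine ⟨by rw [← coset_pow a6, a1, coset_one], _, mem_quo_of_mem a5 a2,
        quo_zpowers a5 ▸ mem_quo_of_mem a6 a3, fun B b1 b2 b3 => ?_⟩
      have b4 := a4 (D ⊓ qpre(_, B)) inf_le_left (ab_iff_der.2 (eq_bot_of_le (le_inf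
        ((der_le _).trans inf_le_left) ((quo_eq_bot ((der_le _).trans (inf_le_left.trans n2))).1 (by
          rw [quo_comm (inf_le_left.trans n2) (inf_le_left.trans n2), quo_inf_qpre_of_le b1,
            ab_iff_der.1 b2]))) i1)) (zpowers_le.1 (normsI (zpowers_le.2 (hn a2)) (norms_qpre (zpowers_le.2 a5)
              (by rwa [quo_zpowers a5, zpowers_le]))))
      have := quo_cents (P ⊓ C(D)) (zpowers_le.2 b4)
      rwa [quo_inf_qpre_of_le b1, quo_zpowers a6, zpowers_le] at this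
    have := ih _ (hμ ▸ Nat.add_lt_add_of_le_of_lt (Nat.le_of_dvd (FT.card_pos D) (card_quo_dvd _ _))
      (card_quo_lt n1 hf)) _ _ _ _ rfl (hP.quo _) (hD.quo _) (quo_norms _ hn) (key y hy) (key z hz)
    rw [← coset_comm (n1.nrm hy.mem) (n1.nrm hz.mem), ← zpowers_le, ← quo_zpowers (n1.nrm hc),
      quo_cents_iff (zpowers_le.2 (n1.nrm hc)) n2] at this
    exact zpowers_le.1 (comm_eq_bot.1 (eq_bot_of_le (le_inf (comm_le_right (zpowers_le.2 (hn hc))) this) i1))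
  by_contra h0
  obtain ⟨N, -, ⟨n1, n2⟩, n3⟩ := exists_min (fun Y => Y ⊴ P ∧ ⁅y, z⁆ ∈ Y) ⟨Nml.refl P, hc⟩
  have hmin : ∀ X < D, P ≤ N(X) → X ≤ C(N) := fun X a b => centsC (inf_eq_left.1 (n3 _ ⟨n1.subcent b, n2,
    ih _ (hμ ▸ Nat.add_lt_add_right (card_lt a) _) P X y z rfl hP (hD.mono a.le) b (hy.mono a.le)
      (hz.mono a.le)⟩ inf_le_left))
  obtain ⟨-, b2, b3, -⟩ := minimal_action hn n1.nrm n1.le (cop.mono le_rfl n1.le).symm hD.sol
    (fun c => h0 (c n2)) hmin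
  have hZ : ∀ y, ExY p P D y → y ∈ P ⊓ C(Z(D)) := fun y h => ⟨h.mem, let ⟨_, g, a1, _, a2⟩ := h;
    a2 _ inf_le_left (ab_center D) (norms_center hn a1)⟩
  obtain ⟨A, a1, a2⟩ := odd_normal_p2Elem_exists hp hP (Nat.not_even_iff_odd.1 fun c =>
    h2 (hP 2 Nat.prime_two c.two_dvd).symm) (subcent_nml (norms_center hn)) fun c =>
    h0 (commutatorElement_eq_one_iff_mul_comm.2 (c.ab.comm (hZ y hy) (hZ z hz)) ▸ one_mem _)
  have lt : ∀ a ∈ A, a ≠ 1 → D ⊓ C[a] < D := fun a ha e => lt_of_le_of_ne inf_le_left fun c =>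
    e (hf.le ⟨a1.le ha, le_cen1.1 (inf_eq_left.1 c)⟩)
  obtain ⟨a, a3, a4, a5⟩ := coprime_abelian_exists_cent1 (L := C[⁅y, z⁆]) a2.ab a2.not_cyc (a1.le.trans hn)
    (cop.mono le_rfl a1.le) (by rwa [le_cen1])
  have a6 : D ⊓ C(A) ≤ C(N) := hmin _ ((inf_le_inf_left D (cen_le_cen1 a3)).trans_lt (lt a a3 a4))
    (norms_subcent hn a1.nrm)
  have o1 := a2.abelem.orderOf hp a3 a4
  have o2 : ∀ h ∈ P, h ∉ C[a] → D ⊓ C[a] ⊓ cj h (D ⊓ C[a]) ≤ C(N) ∧ cj h (D ⊓ C[a]) ≤ C(D ⊓ C[a]) := by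
    intro h c1 c2
    have c3 := a1.conj_mem c1 a3
    have c4 := ((pnElem_zpowers hp a3 o1).sup_two (pnElem_zpowers hp c3 ((orderOf_conj h a).trans o1))
      (a2.ab.cents (zpowers_le.2 a3) (zpowers_le.2 c3)) fun e => c2 (cen_zpowers a ▸ zpowers_le.1
        ((cyc_zpowers a).cents_of_coprime (zpowers_le.2 (cj_eq_self.1 (by rw [cj_zpowers, ← e]))) ?_)))
    swap
    · obtain ⟨i, hi⟩ := (hP.mono (zpowers_le.2 c1)).exists_pow (card_ne_zero _)
      rw [hi, Nat.card_zpowers, o1, Nat.totient_prime hp]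
      exact ((Nat.coprime_self_sub_right hp.one_le).2 (Nat.coprime_one_right p)).pow_left i
    have c5 : D ⊓ C[a] ⊓ cj h (D ⊓ C[a]) ≤ C(N) := by
      refine le_trans ?_ a6
      rw [← c4.eq_of_le a2 c4.le, cen_sup, cen_zpowers, cen_zpowers, cj_inf, cj_cen1, ← inf_assoc D]
      exact inf_le_inf_left _ inf_le_right
    have c6 : cj h (D ⊓ C[a]) ≤ D := cj_le_of_nrm (hn c1) inf_le_left
    refine ⟨c5, ?_⟩
    have c7 : ⟪a⟫ ≤ N(cj h (D ⊓ C[a])) := by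
      rw [cj_inf, cj_cen1, cj_of_mem_nrm (hn c1)]
      exact normsI (zpowers_le.2 (hn (a1.le a3))) (norms_cen1 (zpowers_le.2 (a2.ab.le_cen1 c3 a3)))
    rw [← (coprime_cent_prod c7 (cop.mono c6 (zpowers_le.2 (a1.le a3))) (hD.mono c6).sol).sup]
    refine sup_le ((commSS c6 le_rfl).trans (comm_eq_bot.1 (three_subgroup ?_ (comm_eq_bot'.2 ?_))))
      (le_trans (le_trans (le_inf (inf_le_left.trans c6) (le_trans ?_ c5)) b3) (cen_anti inf_le_left))
    · rw [comm_eq_bot'.2 (inf_le_right.trans (cen_zpowers a).ge), commutator_bot_left]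
    · exact centsS ((commSS inf_le_left le_rfl).trans (le_inf (der_le D) ((le_inf (der_le D) b2).trans b3)))
        (zpowers_le.2 (a2.le a3).2)
    · exact le_inf (le_inf (inf_le_left.trans c6) (inf_le_right.trans (cen_zpowers a).le)) inf_le_left
  have key : ∀ y, ExY p P D y → ExY p (P ⊓ C[a]) (D ⊓ C[a]) y := by
    rintro y ⟨c1, g, c2, c3, c4⟩
    obtain ⟨g', c5⟩ := cyc_iff.1 ((cyc_zpowers g).mono (inf_le_left : ⟪g⟫ ⊓ C[a] ≤ _))
    have c6 : ∀ B ≤ D ⊓ C[a], Ab B → g' ∈ N(B) → y ∈ C(B) := fun B d1 d2 d3 => by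
      refine cen_anti (le_iSup_of_le (1 : ⟪g⟫) (cj_one B).ge) (c4 (⨆ h : ⟪g⟫, cj h B) (iSup_le fun h =>
        cj_le_of_nrm (hn (zpowers_le.2 c2 h.2)) (d1.trans inf_le_left)) (ab_iff.2 (iSup_le fun h => centsC
          (iSup_le fun k => ?_))) (mem_nrm_of_cj_le ?_))
      · rw [← cj_cen, le_cj_iff, cj_cj]
        have d4 := mul_mem (inv_mem h.2) k.2
        by_cases e : (h : G)⁻¹ * k ∈ C[a]
        · rw [cj_of_mem_nrm (zpowers_le.2 d3 (c5.le ⟨d4, e⟩))]; exact d2.le_cen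
        · exact centSS d1 (cj_mono _ d1) (o2 _ (zpowers_le.2 c2 d4) e).2
      · rw [cj_def, Subgroup.map_iSup]
        exact iSup_le fun h => le_iSup_of_le (⟨g * h, mul_mem (mem_zpowers g) h.2⟩ : ⟪g⟫) (cj_cj g h B).le
    have c7 := c5.ge (mem_zpowers g')
    refine ⟨c1, g', ⟨zpowers_le.2 c2 c7.1, c7.2⟩, c5.le ⟨c3, by_contra fun e => a5 ?_⟩, c6⟩
    have c8 : ⟪g⟫ ⊓ C[a] = ⊥ := by_contra fun c => e ((cyc_zpowers g).mem_of_pow_card inf_le_left c3 (by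
      obtain ⟨i, hi⟩ := (hP.mono (inf_le_left.trans (zpowers_le.2 c2))).dvd c
      rw [hi, pow_mul, c1, one_pow])).2
    have c9 : y ∈ C(D ⊓ C[a]) := mem_cen.2 fun b hb => mem_cen.1 (c6 _ (zpowers_le.2 hb) (ab_zpowers b)
      (mem_bot.1 (c8.le c7) ▸ one_mem _)) b (mem_zpowers b)
    have := (o2 y (zpowers_le.2 c2 c3) e).1
    rw [cj_of_mem_cen c9, inf_idem] at this
    exact this.trans (cen_le_cen1 n2)
  exact a5 (le_cen1.2 (ih _ (hμ ▸ Nat.add_lt_add_of_lt_of_le (card_lt (lt a a3 a4)) (card_le inf_le_left)) _ _ y z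
    rfl (hP.mono inf_le_left) (hD.mono inf_le_left) (normsI (inf_le_left.trans hn) (norms_cen1 inf_le_right))
    (key y hy) (key z hz)))

variable [hp : Fact p.Prime]

theorem HRed.pow_comm {V : Subgroup G} [V.Normal] {n : ℕ} (h : HRed p V) (h2 : p ≠ 2) (he : PExp p (n + 1) G)
    {P : Subgroup (G ⧸ V)} (hP : PGrp p P) {u v : G ⧸ V} (hu : u ∈ P) (hv : v ∈ P) :
    ⁅u ^ p ^ n, v ^ p ^ n⁆ = 1 := by
  obtain ⟨S⟩ := h.rep
  have hK := pcore_pi {p}ᶜ (⊤ : Subgroup (G ⧸ V))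
  have h1 := he.map (QuotientGroup.mk'_surjective V)
  have key : ∀ q (Q : Subgroup (G ⧸ V)), q.Prime → q ≠ p → PGrp q Q → ∀ u ∈ P, ExY p P Q (u ^ p ^ n) :=
    fun q Q a1 a2 a3 u hu => ⟨by rw [← pow_mul, ← pow_succ, h1 u (hP.piElt hu)], u, hu,
      pow_mem (mem_zpowers u) _, fun B b1 b2 b3 => by_contra fun c => by
        refine (hb_field a1 a2 b3 (a3.mono b1) (h1 u (hP.piElt hu)) ?_ (h.exc S he (hP.piElt hu))).elim
          (fun d => ?_) (·.1 b2)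
        · rwa [(MonoidHom.ker_eq_bot_iff _).2 S.inj, le_bot_iff, comm_eq_bot', zpowers_le]
        · have := Nat.pow_pos (n := n + 1) hp.out.pos; omega⟩
  have a1 := pow_mem hu (p ^ n)
  have a2 := pow_mem hv (p ^ n)
  refine (hP.piElt (mul_mem (mul_mem (mul_mem a1 a2) (inv_mem a1)) (inv_mem a2))).eq_one_of_mem hK
    ((psol_top hp.out (h.sol_quo hp.out)).cen hp.out (.inl rfl) (h.core_quo hp.out) ⟨trivial, le_cen1.1
      (le_of_forall_syl fun q hq hd => ?_)⟩)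
  obtain ⟨Q, b1, b2⟩ := coprime_Sylow_exists q (le_top.trans (pcore_nml _ _).nrm) (hK.cop' hP) (.inr hP.sol)
  exact ⟨Q, b1, le_cen1.2 (exY_comm hp.out h2 (hK q hq hd) _ P Q _ _ rfl hP b1.pi b2
    (key q Q hq (hK q hq hd) b1.pi u hu) (key q Q hq (hK q hq hd) b1.pi v hv))⟩

theorem pl_two_exp (h2 : p ≠ 2) (e : ℕ) : ∀ {G : Type u} [Group G] [Finite G], IsPSolvable p G → PExp p e G →
    PLengthLE p (2 * e) G := by
  induction e with
  | zero => exact fun _ h => h.pl_zero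
  | succ n ih =>
  intro G _ _ hs h1
  obtain ⟨G₁, _, _, f, V, a1, a2, a3⟩ := exists_hred hp.out hs
  haveI := a2.normal
  obtain ⟨H, _, _, f', W, b1, b2, b3⟩ := exists_hred hp.out (a2.sol_quo hp.out)
  haveI := b2.normal
  obtain ⟨S⟩ := b2.rep
  have b4 := QuotientGroup.mk'_surjective W
  have b5 := ((h1.map a1).map (QuotientGroup.mk'_surjective V)).map b1
  refine pl_of_hred hp.out a1 a3 (pl_of_hred hp.out b1 b3 (ih (b2.sol_quo hp.out) fun y hy => by_contra fun c => ?_))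
  obtain ⟨g, c1, rfl⟩ := exists_pelt_map (f := (QuotientGroup.mk' W).comp f') (b4.comp b1) hy
  obtain ⟨P, c2, c3⟩ := c1.zpowers.exists_syl le_top
  have c4 := (map_top_of_surjective _ b1 ▸ c2.map f').ge_of_nml (b2.abe.pGrp hp.out) (nml_top_iff.2 ‹_›)
  have c5 : (S.σ (f' g) - 1) ^ (p ^ n + (p ^ n - 1)) = 0 := S.ext0 fun v hv => by
    obtain ⟨h, d1, rfl⟩ := c4 hv
    have d2 := congrArg f' (a2.pow_comm h2 (h1.map a1) c2.pi (zpowers_le.1 c3) (mul_mem d1 (zpowers_le.1 c3)))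
    obtain ⟨d3, d4⟩ := S.norm (f' g) hv (p ^ n)
    rw [pow_add, End.mul_apply, sub_one_pow_pred, ← d4, sub_one_pow_char, ← map_pow, ← QuotientGroup.mk_pow,
      ← (S.comm _ d3).2, ← S.map_one, ← map_one f', ← d2, map_commutatorElement, map_pow, map_pow, map_mul]
    simp [commutatorElement_def, mul_assoc]
  have c6 := Nat.pow_pos (n := n) hp.out.pos
  have c7 : 3 * p ^ n ≤ p ^ (n + 1) := by
    rw [pow_succ']; exact Nat.mul_le_mul_right _ (lt_of_le_of_ne hp.out.two_le h2.symm)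
  obtain ⟨q, Q, -, -, -, d | ⟨-, n₀, m, d1, d2, -, -, d⟩⟩ := hh_B S.inj (b2.sol_quo hp.out) (b2.core_quo hp.out)
    (orderOf_eq_prime_pow c (b5.map b4 _ hy)) c5
  · omega
  · rw [Nat.mul_sub_one, ← pow_add, Nat.sub_add_cancel d2] at d
    have := Nat.pow_le_pow_right hp.out.pos (show n + 1 - n₀ ≤ n by omega)
    omega

end Cfsg.Agent.H1
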