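import Cfsg.Agent.H1.HHR
import Cfsg.Agent.H18.Norm

/-! Cyclic normal subgroups of a Sylow subgroup lie in `O_{p',p}(G)`. -/

set_option autoImplicit false
set_option linter.unusedSectionVars false
set_option linter.style.haveILetI false

namespace Cfsg.Agent.H1

open Cfsg Module Subgroup Cfsg.Agent.H28 Cfsg.Agent.FT Function
open scoped commutatorElement

universe u

variable {G : Type u} [Group G] [Finite G] {p : ℕ} [hp : Fact p.Prime] {V : Subgroup G} [V.Normal] {a : G}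

/-- a complement to `V` in `O_{p,p'}(G)` -/
theorem HRed.exists_compl (h : HRed p V) : ∃ K : Subgroup G, PiGrp {p}ᶜ K ∧ MulEq V N(K) ⊤ ∧
    ∀ c, PiElt {p} c → c ∈ C(K) → c ∈ V := by
  have s := QuotientGroup.mk'_surjective V
  have pV := h.abe.pGrp hp.out
  have hK := pcore_pi {p}ᶜ (⊤ : Subgroup (G ⧸ V))
  have nL := (pcore_nml {p}ᶜ (⊤ : Subgroup (G ⧸ V))).comap (QuotientGroup.mk' V)
  have le : V ≤ O[{p}ᶜ](⊤).comap (QuotientGroup.mk' V) := (QuotientGroup.ker_mk' V).ge.trans (ker_le_comap _ _)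
  obtain ⟨K, a1, a2⟩ := Hall.exists_compl (π := {p}) ⟨le, pV, by
    have := card_map_eq (QuotientGroup.mk' V) (O[{p}ᶜ](⊤).comap (QuotientGroup.mk' V))
    rw [QuotientGroup.ker_mk', map_comap_eq_self_of_surjective s] at this
    exact this ▸ hK⟩ le_normalizer_of_normal
  refine ⟨K, a1.pi, top_inf_eq N(K) ▸ sd_frattini a2 (pV.cop a1.pi) (.inl pV.sol) nL le_normalizer_of_normal,
    fun c h1 h2 => (QuotientGroup.eq_one_iff c).1 ((piElt_iff.2 (MonoidHom.map_zpowers (QuotientGroup.mk' V) c ▸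
      h1.zpowers.map _)).eq_one_of_mem hK ((psol_top hp.out (h.sol_quo hp.out)).cen hp.out (.inl rfl)
        (h.core_quo hp.out) ⟨trivial, ?_⟩))⟩
  have := map_cents (QuotientGroup.mk' V) (zpowers_le.2 h2)
  rw [← map_comap_eq_self_of_surjective s O[{p}ᶜ](_), ← a2.sup, Subgroup.map_sup,
    (Subgroup.map_eq_bot_iff V).2 (QuotientGroup.ker_mk' V).ge, bot_sup_eq]
  exact this (mem_map_of_mem _ (mem_zpowers c))

theorem HRed.mem_of_cyc (h : HRed p V) (ha : PiElt {p} a) (hn : V ≤ N(⟪a⟫))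
    (h4 : p ≠ 2 ∨ ¬ Involves (Equiv.Perm (Fin 4)) G) : a ∈ V := by
  by_contra h0
  have pV := h.abe.pGrp hp.out
  have h1 : ∀ w ∈ V, ⁅a, w⁆ ∈ ⟪a⟫ ⊓ V := fun w hw => comm_le_inf hn le_normalizer_of_normal
    (commutator_mem_commutator (mem_zpowers a) hw)
  rcases eq_or_ne p 2 with rfl | h2
  · obtain ⟨v, hv, h3⟩ : ∃ v ∈ V, ⁅a, v⁆ ≠ 1 := by
      by_contra! c
      exact h0 (h.cen (mem_cen.2 fun v hv => (commutatorElement_eq_one_iff_mul_comm.1 (c v hv)).symm))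
    have h5 := (h.abe.mono inf_le_right).card_of_cyc hp.out ((cyc_zpowers a).mono inf_le_left)
      (ne_bot_of_mem (h1 v hv) h3)
    refine h4.resolve_left (· rfl) (H18.Transv.involves pV.isPGroup h.abe.ab.le_cen (c := ⁅a, v⁆)
      ⟨(h1 v hv).2, h.abe.pow (h1 v hv).2, h3, by rw [(ab_zpowers a).comm (mem_zpowers a) (h1 v hv).1]; simp,
        fun w hw => or_iff_not_imp_left.2 fun e => ?_⟩ fun c => h0 ?_)
    · obtain ⟨y, -, hy⟩ := (Nat.card_eq_two_iff' (1 : ↥(⟪a⟫ ⊓ V))).1 h5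
      exact congrArg Subtype.val ((hy ⟨_, h1 w hw⟩ fun c => e (congrArg Subtype.val c)).trans
        (hy ⟨_, h1 v hv⟩ fun c => h3 (congrArg Subtype.val c)).symm)
    · exact h.core.le ((pcore_top' hp.out).ge (H5.opMod_le_pCore (pV.mono h.cen).isPGroup c))
  obtain ⟨S⟩ := h.rep
  obtain ⟨K, a1, a2, a3⟩ := h.exists_compl
  obtain ⟨v, hv, c, hc, rfl⟩ := a2.mul a trivial
  have b1 : PGrp p ⟪c⟫ := (pV.sup ha.zpowers le_normalizer_of_normal).mono (zpowers_le.2 (by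
    simpa using mul_mem_sup (inv_mem hv) (mem_zpowers (v * c))))
  have b2 := zpowers_le.2 hc
  have b3 := comm_le_left b2
  have b4 := coprime_commGid b2 (a1.cop' b1)
  have b5 := norm_comm_right K ⟪c⟫
  have cop := pV.cop (a1.mono b3)
  suffices ⁅K, ⟪c⟫⁆ ≤ C(V) from h0 (mul_mem hv (a3 c (piElt_iff.2 b1) (zpowers_le.1 (comm_eq_bot'.1
    (eq_bot_of_le (le_inf (this.trans h.cen) le_rfl) cop.inf)))))
  generalize ⁅K, ⟪c⟫⁆ = Q at *
  obtain ⟨n, hn'⟩ := ha.exists_pow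
  obtain ⟨i, -, c1, c2⟩ := exists_last_pow h0 (hn' ▸ one_mem _)
  have e : ((v * c : G) : G ⧸ V) = c := by rw [QuotientGroup.mk_mul, (QuotientGroup.eq_one_iff v).2 hv, one_mul]
  have c3 : (S.σ c - 1) ^ 2 = 0 := S.ext0 fun w hw => by
    rw [← e, sq, End.mul_apply, ← (S.comm _ hw).2, ← (S.comm _ (h1 w hw).2).2, commutatorElement_eq_one_iff_mul_comm.2
      ((ab_zpowers _).comm (mem_zpowers _) (h1 w hw).1), S.map_one]
  obtain ⟨c4, c5⟩ := S.norm c hv (p ^ (i + 1))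
  rw [← sub_one_pow_pred, pow_eq_zero_of_le (by
    have := Nat.le_self_pow (i.add_one_ne_zero) p; have := hp.out.two_le; omega) c3, LinearMap.zero_apply,
    S.eq_zero _ c4, mul_inv_eq_one] at c5
  have c6 : ⟪v * c⟫ ⊓ V ≤ C(Q) := fun z hz => by
    obtain ⟨j, rfl⟩ := (mem_powers_iff_mem_zpowers.2 hz.1 : z ∈ Submonoid.powers _)
    obtain ⟨l, rfl⟩ : p ^ (i + 1) ∣ j := by_contra fun d => c2 (pow_mem_of_not_dvd hp.out hz.2 c1 d)
    simp only [pow_mul]
    exact pow_mem (zpowers_le.1 (comm_eq_bot'.1 (eq_bot_of_le (le_inf ((commSS le_rfl (zpowers_le.2 c1)).trans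
      (comm_le_right le_normalizer_of_normal)) (comm_le_left (zpowers_le.2 (c5 ▸ b5 (pow_mem (mem_zpowers c) _)))))
      cop.inf))) _
  have d1 : ⁅V, Q⁆ ≤ V := comm_le_left le_normalizer_of_normal
  have d2 : ⟪v * c⟫ ≤ N(⁅V, Q⁆) := zpowers_le.2 (mul_mem (norm_comm_left V Q hv)
    (normsR le_normalizer_of_normal b5 (mem_zpowers c)))
  have d3 : ⟪v * c⟫ ≤ C(⁅V, Q⁆) := comm_eq_bot'.1 (eq_bot_of_le (le_inf (comm_le_left d2) (le_trans (le_inf
    (comm_le_right (d1.trans hn)) ((comm_le_left d2).trans d1)) c6))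
    (coprime_abel_cent_TI le_normalizer_of_normal cop h.abe.ab))
  have d4 : ⟪c⟫ ≤ C(⁅V, Q⁆) := zpowers_le.2 (by
    simpa using mul_mem (h.abe.ab.cents d1 le_rfl (inv_mem hv)) (d3 (mem_zpowers _)))
  exact coprime_commGG1P le_normalizer_of_normal cop (comm_eq_bot'.2 (b4.ge.trans ((commSS le_rfl d4).trans
    (comm_le_right (norms_cent (norm_comm_right V Q))))))

end Cfsg.Agent.H1
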