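import Cfsg.Agent.H1.HHR
import Cfsg.Agent.FT.X2a

/-! The Hall–Higman bound `l_p ≤ d_p` for odd `p`. -/

set_option autoImplicit false
set_option linter.unusedSectionVars false
set_option linter.style.haveILetI false

namespace Cfsg.Agent.H1

open Cfsg Module Subgroup Cfsg.Agent.H28 Cfsg.Agent.FT Function
open scoped commutatorElement

universe u v

variable {k : Type*} [Field k] {G : Type u} [Group G] [Finite G] {V : Type v} [AddCommGroup V]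
  [Module k V] [FiniteDimensional k V] {ρ : Representation k G V} {B E P Q : Subgroup G} {x : G}
  {U : Submodule k V} {p q : ℕ} [hp : Fact p.Prime]

theorem small_comm (h2 : p ≠ 2) (hB : PGrp p B) (hE : Ab E) (hc : Cop E B) (hn : B ≤ N(E)) (hA : Ab ⁅B, B⁆)
    (h : ∀ a ∈ ⁅B, B⁆, #⁅E, ⟪a⟫⁆ ≤ 4) : ⁅B, B⁆ ≤ C(E) := fun a ha => by_contra fun h0 => by
  have h3 : 3 ≤ p := lt_of_le_of_ne hp.out.two_le h2.symm
  have le : ∀ a ∈ ⁅B, B⁆, ⟪a⟫ ≤ B := fun a ha => zpowers_le.2 (der_le B ha)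
  have ti := fun a ha => coprime_abel_cent_TI ((le a ha).trans hn) (hc.mono le_rfl (le a ha)) hE
  have ix : ∀ X ≤ B, ∀ e, ¬ X ≤ C[e] → ∃ i, C[e].relIndex X = p ^ (i + 1) := fun X hX e he => by
    obtain ⟨i | i, hi⟩ := ((hB.mono hX).piNat.of_dvd (relIndex_dvd_card C[e] X)).exists_pow (relIndex_pos _ _).ne'
    · exact absurd (relIndex_eq_one.1 hi) he
    · exact ⟨i, hi⟩
  have nc : ∀ a ∈ ⁅B, B⁆, ∀ e ∈ ⁅E, ⟪a⟫⁆, e ≠ 1 → ¬ ⟪a⟫ ≤ C[e] := fun a ha e he h1 c =>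
    h1 ((ti a ha).le ⟨he, le_cen1.1 c⟩)
  have big : ∀ a ∈ ⁅B, B⁆, ∀ X ≤ ⁅E, ⟪a⟫⁆, X ≠ ⊥ → ⟪a⟫ ≤ N(X) → 4 ≤ #X := fun a ha X a1 a2 a3 => by
    obtain ⟨e, b1, b2⟩ := exists_ne_one a2
    obtain ⟨i, hi⟩ := ix _ (le a ha) e (nc a ha e (a1 b1) b2)
    have := hi ▸ x2_relIndex_cen1_lt a3 b1 b2
    have := Nat.le_self_pow i.add_one_ne_zero p
    omega
  have nr : ∀ a ∈ ⁅B, B⁆, ∀ c ∈ ⁅B, B⁆, ⟪a⟫ ≤ N(⁅E, ⟪c⟫⁆) := fun a ha c hc =>
    normsR ((le a ha).trans hn) ((zpowers_le.2 ha).trans (hA.norms (zpowers_le.2 hc)))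
  have up : ∀ a ∈ ⁅B, B⁆, ∀ c ∈ ⁅B, B⁆, ⁅E, ⟪a⟫⁆ ⊓ ⁅E, ⟪c⟫⁆ = ⊥ → ⁅E, ⟪a⟫⁆ ≤ ⁅E, ⟪a * c⟫⁆ := fun a ha c hc' e => by
    have b1 := comm_le_left ((le a ha).trans hn)
    have b2 : ⟪c⟫ ≤ C(⁅E, ⟪a⟫⁆) := comm_eq_bot'.1 (eq_bot_of_le (le_inf (comm_le_left (nr c hc' a ha))
      (commSS b1 le_rfl)) e)
    rw [← coprime_commGid ((le a ha).trans hn) (hc.mono le_rfl (le a ha))]
    refine le_trans (commSS le_rfl (zpowers_le.2 ?_)) (((mulEq_sup ((zpowers_le.2 hc').trans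
      (hA.norms (zpowers_le.2 (mul_mem ha hc'))))).comm_eq_of_cents' b2).le.trans (commSS b1 le_rfl))
    simpa using mul_mem_sup (mem_zpowers (a * c)) (inv_mem (mem_zpowers c))
  have h1 : ⁅E, ⟪a⟫⁆ ≠ ⊥ := fun e => h0 (zpowers_le.1 (comm_eq_bot'.1 e))
  have h4 : B ≤ N(⁅E, ⟪a⟫⁆) := fun b hb => by
    have b1 := (der_nml B).conj_mem hb ha
    have b2 : cj b ⁅E, ⟪a⟫⁆ = ⁅E, ⟪b * a * b⁻¹⟫⁆ := by rw [cj_comm, cj_of_mem_nrm (hn hb), cj_zpowers]
    refine mem_nrm_of_cj_le (b2.le.trans ?_)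
    have b3 : ⁅E, ⟪b * a * b⁻¹⟫⁆ ≠ ⊥ := fun e => h1 (cj_eq_bot.1 (b2.trans e))
    generalize b * a * b⁻¹ = c at b1 b3
    by_cases e : ⁅E, ⟪a⟫⁆ ⊓ ⁅E, ⟪c⟫⁆ = ⊥
    · refine (up c b1 a ha (inf_comm ⁅E, ⟪a⟫⁆ _ ▸ e)).trans (hA.comm ha b1 ▸ (eq_of_card_le (up a ha c b1 e)
        ((h _ (mul_mem ha b1)).trans (big a ha _ le_rfl h1 (nr a ha a ha)))).ge)
    · exact inf_eq_right.1 (eq_of_card_le inf_le_right ((h c b1).trans (big a ha _ inf_le_left e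
        (normsI (nr a ha a ha) (nr a ha c b1)))))
  obtain ⟨e, b1, b2⟩ := exists_ne_one h1
  obtain ⟨i, hi⟩ := ix B le_rfl e fun c => nc a ha e b1 b2 ((le a ha).trans c)
  have b3 := hi ▸ (x2_relIndex_cen1_lt h4 b1 b2).trans_le (h a ha)
  obtain rfl : i = 0 := by_contra fun c => by
    have := Nat.pow_le_pow_right hp.out.pos (show 2 ≤ i + 1 by omega)
    nlinarith
  rw [zero_add, pow_one, ← inf_relIndex_right] at hi
  exact nc a ha e b1 b2 ((zpowers_le.2 ha).trans ((der_le_of_prime_relIndex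
    (hB.nml_of_relIndex hp.out inf_le_right hi).nrm (hi ▸ hp.out)).trans inf_le_left))

variable [CharP k p]

theorem quad_index [IsAlgClosed k] (hc : (#P : k) ≠ 0) (hU0 : U ≠ ⊥) (hU : RInv ρ (P ⊔ ⟪x⟫) U) (hx : x ∈ N(P))
    (hder : ⁅P, P⁆ ≤ C(P)) (hZ : x ∈ C(Z(P))) (hi : ⟪x⟫ ⊓ P = ⊥)
    (hreg : ∀ y ∈ ⟪x⟫, y ≠ 1 → ∀ a ∈ P, ⁅a, y⁆ ∈ Z(P) → a ∈ Z(P))
    (hsc : ∀ z ∈ Z(P), z ≠ 1 → ∃ c : k, c ≠ 1 ∧ ∀ v ∈ U, ρ z v = c • v) (ho : 2 < orderOf x)
    (hr : ∀ v ∈ U, ((ρ x - 1) ^ 2 : End k V) v = 0) : Z(P).relIndex P ≤ 4 := by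
  obtain ⟨W, e1, e2, e3⟩ := exists_rSimple_invariant ρ hU0 hU hx hder
    (fun z hz => (mem_cen.1 hZ z hz).symm) (fun e a ha h3 => (hreg x (mem_zpowers x) e a ha
      ⟨comm_le_left (zpowers_le.2 hx) (commutator_mem_commutator ha (mem_zpowers x)), h3⟩).2) hsc hc
  haveI := e2.isIrreducible
  obtain ⟨e4, e5⟩ := class_two_aux hder hsc e2.2.1 e1
  rw [center_eq_map, relIndex, so_map, ← finrank_sq_eq_index (subRep ρ P W e2.2.1) e4 e5]
  rcases crit_sub inf_le_left (sup_le (centsC inf_le_right) (zpowers_le.2 hZ)) e2 e3 (zpowers_le.2 hx) hreg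
    (eq_bot_of_le (inf_le_inf_left _ inf_le_left) hi) hc (fun w hw => hr w (e1 hw)) ho with e | e
  · simp [e]
  · rw [show finrank k W = 2 by omega]; rfl

theorem hq_aux [IsAlgClosed k] (h2 : p ≠ 2) (hq : q.Prime) (hk : (q : k) ≠ 0) (μ : ℕ) : ∀ {G : Type u} [Group G]
    [Finite G] {V : Type v} [AddCommGroup V] [Module k V] [FiniteDimensional k V] (ρ : Representation k G V)
    (U : Submodule k V) (Q B : Subgroup G), (rcent ρ U).relIndex Q = μ → B ≤ N(Q) → PGrp q Q → PGrp p B →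
    Ab ⁅B, B⁆ → RInv ρ (Q ⊔ B) U → (∀ a ∈ ⁅B, B⁆, ∀ v ∈ U, (ρ a - 1) ((ρ a - 1) v) = 0 ∧
      ∀ b ∈ B, (ρ a - 1) ((ρ b - 1) ((ρ b - 1) v)) = 0) → ⁅Q, ⁅B, B⁆⁆ ≤ rcent ρ U := by
  induction μ using Nat.strong_induction_on with | _ μ ih =>
  suffices key : ∀ {G : Type u} [Group G] [Finite G] {V : Type v} [AddCommGroup V] [Module k V]
      [FiniteDimensional k V] (ρ : Representation k G V) (Q B : Subgroup G), #Q = μ → Injective ρ → B ≤ N(Q) →
      PGrp q Q → PGrp p B → Ab ⁅B, B⁆ → (∀ a ∈ ⁅B, B⁆, ∀ v, (ρ a - 1) ((ρ a - 1) v) = 0 ∧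
      ∀ b ∈ B, (ρ a - 1) ((ρ b - 1) ((ρ b - 1) v)) = 0) → Q ≤ C(⁅B, B⁆) by
    intro G _ _ V _ _ _ ρ U Q B hμ hn hQ hB hA hU h
    obtain ⟨G', _, _, f, σ, a1, a2, a3⟩ := exists_faithful hU
    have a4 : ∀ g ∈ B, ∀ w : U, ((σ (pfun f g) - 1) w : V) = (ρ g - 1) w := fun g hg w => by
      rw [a3 g (mem_sup_right hg)]; rfl
    have a5 := pmap_comm f (le_sup_right : B ≤ _) le_sup_right
    have := key σ (pmap f Q) (pmap f B) (by
      rw [card_pmap f le_sup_left, a2, inf_comm (Q ⊔ B), ← inf_relIndex_right, inf_assoc,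
        inf_of_le_right (le_sup_left : Q ≤ _), inf_relIndex_right, hμ]) a1 (pmap_norms f hn) (hQ.pmap f)
      (hB.pmap f) (a5 ▸ hA.pmap f) fun a ha v => by
        obtain ⟨a, b1, -, rfl⟩ := mem_pmap.1 (a5.ge ha)
        have b2 := der_le B b1
        refine ⟨Subtype.ext ?_, fun b hb => Subtype.ext ?_⟩
        · rw [a4 a b2, a4 a b2]; exact (h a b1 v v.2).1
        · obtain ⟨b, b3, -, rfl⟩ := mem_pmap.1 hb
          rw [a4 a b2, a4 b b3, a4 b b3]; exact (h a b1 v v.2).2 b b3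
    rw [← a5, pmap_cents_iff le_sup_left ((der_le B).trans le_sup_right), a2] at this
    exact this.trans inf_le_right
  intro G _ _ V _ _ _ ρ Q B hμ hf hn hQ hB hA h
  by_contra h0
  have hK := rcent_top hf
  have hK' := (MonoidHom.ker_eq_bot_iff _).2 hf
  have hc : ∀ X ≤ Q, (#X : k) ≠ 0 := fun X hX => by
    obtain ⟨a, ha⟩ := (hQ.mono hX).exists_pow (card_ne_zero X)
    rw [ha, Nat.cast_pow]; exact pow_ne_zero a hk
  have hcop : Cop Q B := hQ.cop_of_ne hB fun e => hk (e ▸ CharP.cast_eq_zero k p)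
  have lA := der_le B
  obtain ⟨b1, b2, b3, -⟩ := minimal_action hn (der_nml B).nrm lA (hcop.mono le_rfl lA).symm hQ.sol
    (mt centsC h0) fun X a1 a2 => comm_eq_bot.1 (eq_bot_of_le (ih _ (by
      rw [hK, relIndex_bot_left, ← hμ]; exact card_lt a1) ρ ⊤ X B rfl a2 (hQ.mono a1.le) hB hA (rInv_top _ _)
      fun a ha v _ => h a ha v) hK)
  have h3 : 3 ≤ p := lt_of_le_of_ne hp.out.two_le h2.symm
  have hs : ∀ a ∈ ⁅B, B⁆, (ρ a - 1) ^ 2 = 0 := fun a ha => LinearMap.ext fun v => (h a ha v).1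
  have hap : ∀ a ∈ ⁅B, B⁆, a ^ p = 1 := fun a ha => hf (by
    rw [map_pow, map_one, ← sub_eq_zero, ← pow_one p, ← sub_one_pow_char, pow_one,
      pow_eq_zero_of_le hp.out.two_le (hs a ha)])
  have hZ : ⁅B, B⁆ ≤ C(Z(Q)) := fun a ha => by_contra fun c => (hb_aux (p := p) hq hk _ ρ ⊤ Z(Q) a 0 2 rfl
    (norms_center hn (lA ha)) (hQ.mono inf_le_left) (by simpa using hap a ha) (rInv_top _ _)
    (by rwa [hK, le_bot_iff, comm_eq_bot', pow_zero, pow_one, zpowers_le]) fun v _ => (h a ha v).1).elim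
      (fun d => by simp at d; omega) (·.1 (ab_center Q))
  have c2 : ¬ Ab Q := fun e => h0 (centsC (e.center ▸ hZ))
  by_cases hBZ : B ≤ C(Z(Q))
  swap
  · obtain ⟨b, hb, c1⟩ := SetLike.not_le_iff_exists.1 hBZ
    have c3 : ⟪b⟫ ≤ N(Z(Q)) := (zpowers_le.2 hb).trans (norms_center hn)
    have c5 := comm_le_left c3
    have c6 : Q ⊔ ⁅B, B⁆ ≤ C(⁅Z(Q), ⟪b⟫⁆) := (sup_le (centsC inf_le_right) hZ).trans (cen_anti c5)
    have c7 := c5.trans inf_le_left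
    obtain ⟨U, d1, d2⟩ := exists_simple_off (ρ := ρ) _ (hc _ c7) (c6.trans (cen_le_nrm _)) (by
      rw [hK', le_bot_iff, comm_eq_bot', zpowers_le]; exact c1)
    obtain ⟨π, d3, d4⟩ := wt_proj (hc _ c7) (RSimple.scalar d1 (c7.trans le_sup_left) c6) d2
    have d5 : ∀ a ∈ ⁅B, B⁆, ∀ j, ⟪b ^ j⟫ = ⟪b⟫ → ∀ u ∈ U, π (ρ a (ρ (b ^ j) u)) = 0 := fun a ha j e u hu => by
      have d6 := c6 (mem_sup_right ha)
      rw [← End.mul_apply (ρ a), ← map_mul]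
      refine d4 _ (mul_mem (cen_le_nrm _ d6) (norm_comm_right _ _ (pow_mem (mem_zpowers b) j))) (fun z hz c =>
        (coprime_abel_cent_TI c3 (hcop.mono inf_le_left (zpowers_le.2 hb)) (ab_center Q)).le ⟨hz, ?_⟩) u hu
      rw [← mul_assoc, mem_cen.1 d6 z hz, mul_assoc, mul_assoc, mul_left_cancel_iff] at c
      rw [← e, cen_zpowers]; exact mem_cen1.2 c.symm
    have d6 : ⟪b ^ 2⟫ = ⟪b⟫ := zpowers_pow_of_coprime (by
      obtain ⟨i, hi⟩ := (hB.piElt hb).exists_pow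
      exact (((Nat.coprime_primes Nat.prime_two hp.out).2 h2.symm).pow_right i).of_dvd_right
        (orderOf_dvd_of_pow_eq_one hi))
    have d7 : ⁅B, B⁆ ≤ rcent ρ U := fun a ha u hu => by
      have := congrArg π ((h a ha u).2 b hb)
      have e1 := d5 a ha 1 (by simp) u hu
      have e2 := d5 1 (one_mem _) 1 (by simp) u hu
      have e3 := d5 a ha 2 d6 u hu
      have e4 := d5 1 (one_mem _) 2 d6 u hu
      simp only [pow_one, sq, map_mul, map_one, End.mul_apply, End.one_apply] at e1 e2 e3 e4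
      simpa [e1, e2, e3, e4, d3 u hu, d3 _ (d1.2.1 a (mem_sup_right ha) u hu), sub_eq_zero] using this
    refine d1.1 (eq_bot_iff.2 (d2 ▸ le_inf le_rfl (le_rcent_iff.1 (c7.trans (b1.ge.trans ((commSS le_rfl d7).trans
      (comm_le_right (rInv_norms_rcent (d1.2.1.mono le_sup_left)))))))))
  have c1 : Q ⊔ B ≤ C(Z(Q)) := sup_le (centsC inf_le_right) hBZ
  obtain ⟨U, d1, d2⟩ := exists_simple_off (ρ := ρ) (Q ⊔ B) (hc _ le_rfl) (sup_le (le_nrm Q) hn)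
    (by rw [hK', le_bot_iff]; exact fun e => c2 (e ▸ ab_bot))
  by_cases d3 : rcent ρ U ⊓ Q = ⊥
  swap
  · refine d1.1 (eq_bot_iff.2 (d2 ▸ le_inf le_rfl (le_rcent_iff.1 (b1.ge.trans
      (ih _ ?_ ρ U Q B rfl hn hQ hB hA d1.2.1 fun a ha v _ => h a ha v)))))
    have := card_mul_relIndex (inf_le_right : rcent ρ U ⊓ Q ≤ Q)
    rw [inf_relIndex_right] at this
    nlinarith [(one_lt_card_iff_ne_bot _).2 d3, relIndex_pos (rcent ρ U) Q]
  have hder : ⁅Q, Q⁆ ≤ Z(Q) := le_inf (der_le Q) ((le_inf (der_le Q) b2).trans b3)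
  have nZ := norms_center hn
  have nQ := (center_nml Q).nrm
  have e1 := quo_comm nZ nZ
  have := small_comm h2 (hB.quo Z(Q)) ((ab_quo_iff nQ).2 hder) (hcop.quo _) (quo_norms _ hn) (e1 ▸ hA.quo _)
    fun a ha => by
    obtain ⟨a, a1, a2, rfl⟩ := mem_quo.1 (e1.ge ha)
    have a3 := zpowers_le.2 (lA a1)
    have a4 := comm_le_left (a3.trans hn)
    have a5 : ⁅Q, ⟪a⟫⁆ ⊔ Z(Q) ≤ Q := sup_le a4 inf_le_left
    have cop := hcop.mono le_rfl a3
    have a6 : Z(⁅Q, ⟪a⟫⁆ ⊔ Z(Q)) = Z(Q) := le_antisymm (le_inf (inf_le_left.trans a5) (by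
      refine le_trans ?_ (cen_anti (coprime_cent_prod (a3.trans hn) cop hQ.sol).sup.ge)
      refine centsY (inf_le_right.trans (cen_anti le_sup_left)) (inf_le_left.trans (sup_le (comm_eq_bot.1
        (three_subgroup ?_ (comm_eq_bot'.2 ?_))) (center_le_cen inf_le_left)))
      · rw [(comm_eq_bot' (A := ⟪a⟫) (B := Q ⊓ C(⟪a⟫))).2 inf_le_right, commutator_bot_left]
      · exact centsS ((commSS inf_le_left le_rfl).trans hder) (a3.trans hBZ)))
      (le_inf le_sup_right (center_le_cen a5))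
    by_cases a7 : a = 1
    · simp [a7, coset_one]
    have ho := orderOf_eq_prime (hap a a1) a7
    rw [← quo_zpowers a2, ← quo_comm nQ (zpowers_le.2 a2), card_quo (a4.trans nQ), ← relIndex_sup_norm (a4.trans nQ), sup_comm]
    nth_rw 1 [← a6]
    refine quad_index (hc _ a5) d1.1 (d1.2.1.mono (sup_le_sup a5 a3)) (normsY (norm_comm_right _ _) (a3.trans nZ)
      (mem_zpowers a)) ((der_mono a5).trans (hder.trans (center_le_cen a5))) (a6.symm ▸ hBZ (lA a1))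
      (Cop.inf (cop.mono a5 le_rfl).symm) (a6.symm ▸ fun y c3 c4 d c5 c6 => ?_) (a6.symm ▸ fun z hz c3 => ?_)
      (by omega) fun v _ => (h a a1 v).1
    · have h6 := commutatorElement_eq_one_iff_mul_comm.1 (commutator_eq_one_of_coprime
        (mem_cen.1 (hBZ (a3 c3)) _ c6).symm ((cop.coprime_dvd_left
          (orderOf_dvd_natCard Q c6.1)).coprime_dvd_right (orderOf_dvd_natCard _ c3)))
      obtain ⟨u, hu, z, hz, rfl⟩ := (mem_sup_norm' (a4.trans nQ)).1 c5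
      refine mul_mem (hder (coprime_cent_comm_le_der (a3.trans hn) cop ⟨hu, ?_⟩)) hz
      rw [← cen1_eq_of_prime (by rw [Nat.card_zpowers, ho]; exact hp.out) c3 c4]
      exact (mul_mem_cancel_right (centsC (a3.trans hBZ) hz |> cen_le_cen1 c3)).1 (mem_cen1.2 h6)
    · obtain ⟨c, h4⟩ := RSimple.scalar d1 (inf_le_left.trans le_sup_left) c1 z hz
      exact ⟨c, fun e => c3 (d3.le ⟨fun v hv => by simpa [e] using h4 v hv, hz.1⟩), h4⟩
  rw [← e1, quo_cents_iff (lA.trans nZ) nQ, commC, b1] at this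
  exact c2 ((ab_center Q).mono this)

theorem hq_field (h2 : p ≠ 2) (hq : q.Prime) (hne : q ≠ p) (hf : Injective ρ) (hn : B ≤ N(Q)) (hQ : PGrp q Q)
    (hB : PGrp p B) (hA : Ab ⁅B, B⁆) (h : ∀ a ∈ ⁅B, B⁆, (ρ a - 1) * (ρ a - 1) = 0 ∧
      ∀ b ∈ B, (ρ a - 1) * ((ρ b - 1) * (ρ b - 1)) = 0) : Q ≤ C(⁅B, B⁆) := by
  haveI := charP_of_injective_algebraMap (algebraMap k (AlgebraicClosure k)).injective p
  have := hq_aux h2 hq (fun e => hne ((Nat.prime_dvd_prime_iff_eq hp.out hq).1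
    ((CharP.cast_eq_zero_iff (AlgebraicClosure k) p q).1 e)).symm) _ (bcRep (AlgebraicClosure k) ρ) ⊤ Q B
    rfl hn hQ hB hA (rInv_top _ _) fun a ha v _ => ⟨?_, fun b hb => ?_⟩
  · rwa [le_rcent_iff, top_le_iff, rfix_eq_top_iff, ker_bcRep, (MonoidHom.ker_eq_bot_iff _).2 hf, le_bot_iff,
      comm_eq_bot] at this
  · have := congrArg (End.baseChangeHom k (AlgebraicClosure k) V) (h a ha).1
    simp only [map_mul, map_sub, map_one, map_zero] at this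
    exact congr($this v)
  · have := congrArg (End.baseChangeHom k (AlgebraicClosure k) V) ((h a ha).2 b hb)
    simp only [map_mul, map_sub, map_one, map_zero] at this
    exact congr($this v)

theorem HRed.der_le {V : Subgroup G} [V.Normal] (h : HRed p V) (h2 : p ≠ 2) (hB : PGrp p B) (hn : V ≤ N(B))
    (hA : Ab ⁅B, B⁆) : ⁅B, B⁆ ≤ V := by
  obtain ⟨S⟩ := h.rep
  have hK := pcore_pi {p}ᶜ (⊤ : Subgroup (G ⧸ V))
  have pB := hB.map (QuotientGroup.mk' V)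
  have e := map_commutator B B (QuotientGroup.mk' V)
  rw [← QuotientGroup.ker_mk' V, ← Subgroup.map_eq_bot_iff, e]
  refine (pB.mono (FT.der_le _)).eq_bot (hK.mono ((le_inf le_top (centsC (le_of_forall_syl fun q hq hd => ?_))).trans
    ((psol_top hp.out (h.sol_quo hp.out)).cen hp.out (.inl rfl) (h.core_quo hp.out))))
  obtain ⟨Q, b1, b2⟩ := coprime_Sylow_exists q (le_top.trans (pcore_nml _ _).nrm) (hK.cop' pB) (.inr pB.sol)
  refine ⟨Q, b1, hq_field h2 hq (hK q hq hd) S.inj b2 b1.pi pB (e ▸ hA.map _) ?_⟩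
  rw [← e]
  rintro _ ⟨a, ha, rfl⟩
  have c1 : ∀ w ∈ V, w ∈ ⁅B, B⁆ → (S.σ a - 1) (S.π w) = 0 := fun w h1 h2 => by
    rw [← (S.comm a h1).2, commutatorElement_eq_one_iff_mul_comm.2 (hA.comm ha h2), S.map_one]
  refine ⟨S.ext0 fun v hv => ?_, ?_⟩
  · exact (congrArg _ (S.comm a hv).2.symm).trans (c1 _ (S.comm a hv).1
      (comm_le_left (norms_der hn) (commutator_mem_commutator ha hv)))
  · rintro _ ⟨b, hb, rfl⟩
    refine S.ext0 fun v hv => ?_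
    obtain ⟨d1, d2⟩ := S.comm b hv
    obtain ⟨d3, d4⟩ := S.comm b d1
    rw [d2] at d4
    exact (congrArg _ d4.symm).trans (c1 _ d3 (commutator_mem_commutator hb
      (comm_le_left hn (commutator_mem_commutator hb hv))))

theorem pl_of_dn (h2 : p ≠ 2) (d : ℕ) : ∀ {G : Type u} [Group G] [Finite G], IsPSolvable p G →
    (∀ P : Subgroup G, PGrp p P → dn d P = ⊥) → PLengthLE p d G := by
  induction d with
  | zero => exact fun _ h => PExp.pl_zero fun x hx => by simpa using (h _ hx.zpowers).le (mem_zpowers x)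
  | succ d ih =>
  intro G _ _ hs h
  obtain ⟨G', _, _, f, V, a1, a2, a3⟩ := exists_hred hp.out hs
  haveI := a2.normal
  refine pl_of_hred hp.out a1 a3 (ih (a2.sol_quo hp.out) fun P hP => ?_)
  have k := QuotientGroup.ker_mk' V
  have b1 := piGrp_comap (k.symm ▸ a2.abe.pGrp hp.out) hP
  have b2 : V ≤ P.comap (QuotientGroup.mk' V) := k.ge.trans (ker_le_comap _ _)
  obtain ⟨R, b3, b4⟩ := exists_pgrp_map a1 b1
  have b5 := congrArg (map f) (h R b3)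
  rw [map_dn, b4, Subgroup.map_bot, dn_succ, ← ab_iff_der] at b5
  rw [← map_comap_eq_self_of_surjective (QuotientGroup.mk'_surjective V) P, ← map_dn, Subgroup.map_eq_bot_iff, k]
  rcases d with _ | d
  · exact (b5.cents b2 le_rfl).trans a2.cen
  · rw [dn_succ] at b5 ⊢
    refine a2.der_le h2 (b1.mono (dn_le _ _)) (b2.trans ?_) b5
    generalize P.comap (QuotientGroup.mk' V) = X
    clear b5 ih h
    induction d with
    | zero => exact le_nrm X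
    | succ d ih => rw [dn_succ]; exact norms_der ih

end Cfsg.Agent.H1
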