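import Cfsg.Agent.H1.HHR
import Cfsg.Agent.H18.Involves

/-! A `p`-solvable group of `p`-length at least two involves `C_p ≀ C_p` when `p` is not a Fermat prime. -/

set_option autoImplicit false
set_option linter.unusedSectionVars false
set_option linter.style.haveILetI false

namespace Cfsg.Agent.H1

open Cfsg Module Subgroup Cfsg.Agent.H28 Cfsg.Agent.FT Function
open scoped commutatorElement

universe u

variable {G : Type u} [Group G] [Finite G] {p : ℕ} [hp : Fact p.Prime] {V B : Subgroup G} {g t : G}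

/-- the shape of `C_p ≀ C_p` -/
def IsWr (p : ℕ) (W : Type*) [Group W] : Prop := ∃ (B : Subgroup W) (t : W), B.Normal ∧ IsMulCommutative B ∧
  (∀ b ∈ B, b ^ p = 1) ∧ Nat.card B = p ^ p ∧ orderOf t = p ∧ t ∉ B ∧ Nat.card W = p ^ (p + 1) ∧
  Nat.card ↥(B ⊓ Subgroup.centralizer ({t} : Set W)) = p

theorem wr_shrink (hn : t ∈ N(B)) (hB : Abelem p B) (h1 : #B = p ^ p) (h2 : t ^ p = 1) (h3 : t ∉ B)
    (h4 : #(B ⊓ C[t] : Subgroup G) = p) :
    ∃ (W : Type) (_ : Group W) (_ : Finite W), IsWr p W ∧ Nonempty (↥(B ⊔ ⟪t⟫) ≃* W) := by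
  have ho := orderOf_eq_prime h2 fun e => h3 (e ▸ one_mem _)
  have hc : #⟪t⟫ = p := by rw [Nat.card_zpowers, ho]
  have ht : t ∈ B ⊔ ⟪t⟫ := mem_sup_right (mem_zpowers t)
  let e : ↥(B ⊔ ⟪t⟫) ≃* Shrink.{0} ↥(B ⊔ ⟪t⟫) := Shrink.mulEquiv.symm
  have hi : Injective e.toMonoidHom := e.injective
  have hE := (hB.so (le_sup_left : B ≤ B ⊔ ⟪t⟫)).map e.toMonoidHom
  refine ⟨_, inferInstance, Finite.of_equiv _ e.toEquiv, ⟨_, e ⟨t, ht⟩,
    (nml_sup_left (zpowers_le.2 hn)).normal.map _ e.surjective, hE.ab, fun _ => hE.pow,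
    by rw [card_map_inj hi, card_so le_sup_left, h1], by rw [e.orderOf_eq, orderOf_mk, ho],
    fun c => h3 ((mem_map_iff_mem hi).1 c), ?_, ?_⟩, ⟨e⟩⟩
  · rw [← Nat.card_congr e.toEquiv, (sd_sup (zpowers_le.2 hn) (inf_comm B _ ▸ prime_inf_of_not_le
      (hc.symm ▸ hp.out) (mt zpowers_le.1 h3))).card, h1, hc, pow_succ]
  · have : ⟪e ⟨t, ht⟩⟫ = (⟪t⟫.subgroupOf (B ⊔ ⟪t⟫)).map e.toMonoidHom := by
      have := so_map ⟪(⟨t, ht⟩ : ↥(B ⊔ ⟪t⟫))⟫
      rw [MonoidHom.map_zpowers] at this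
      exact (MonoidHom.map_zpowers e.toMonoidHom _).symm.trans (congrArg _ this.symm)
    rw [← h4, ← cen_zpowers, ← cen_zpowers, this, ← map_subcent_inj hi, card_map_inj hi, ← so_cen le_sup_right, ← so_inf,
      card_so (inf_le_left.trans le_sup_left)]

theorem surj_of_nilp {F M : Type*} [Field F] [AddCommGroup M] [Module F M] {N : End F M} {l : M →ₗ[F] F} {n : ℕ}
    {w : M} (h0 : N ^ (n + 1) = 0) (h1 : l ((N ^ n) w) ≠ 0) (f : Fin (n + 1) → F) :
    ∃ m, ∀ i : Fin (n + 1), l ((N ^ (i : ℕ)) m) = f i := by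
  suffices ∀ k ≤ n + 1, ∀ f : Fin (n + 1) → F, (∀ i : Fin (n + 1), k ≤ i → f i = 0) →
    ∃ m, ∀ i : Fin (n + 1), l ((N ^ (i : ℕ)) m) = f i from this _ le_rfl f fun i h => absurd i.2 (by omega)
  intro k
  induction k with
  | zero => exact fun _ f h => ⟨0, fun i => by simp [h i (Nat.zero_le _)]⟩
  | succ k ih =>
    intro hk f h
    obtain ⟨m, hm⟩ := ih (by omega) (fun i => f i - f ⟨k, hk⟩ / l ((N ^ n) w) * l ((N ^ (i + (n - k))) w))
      fun i hi => by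
        rcases hi.eq_or_lt with e | e
        · obtain rfl : i = ⟨k, hk⟩ := Fin.ext e.symm
          rw [show k + (n - k) = n by omega, div_mul_cancel₀ _ h1, sub_self]
        · rw [h i e, pow_eq_zero_of_le (show n + 1 ≤ i + (n - k) by omega) h0]; simp
    exact ⟨m + (f ⟨k, hk⟩ / l ((N ^ n) w)) • (N ^ (n - k)) w, fun i => by simp [hm, pow_add]⟩

theorem HRep.wr [V.Normal] (S : HRep p V) (hV : Abelem p V) (h1 : g ∉ V) (h2 : g ^ p ∈ V)
    (h3 : (S.σ g - 1) ^ (p - 1) ≠ 0) : ∃ (W : Type) (_ : Group W) (_ : Finite W), IsWr p W ∧ Involves W G := by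
  obtain ⟨n, rfl⟩ := Nat.exists_eq_succ_of_ne_zero hp.out.ne_zero
  have h0 : (S.σ g - 1) ^ (n + 1) = 0 := by
    rw [← pow_one (n + 1), sub_one_pow_char, pow_one, ← map_pow, ← QuotientGroup.mk_pow,
      (QuotientGroup.eq_one_iff _).2 h2, _root_.map_one, sub_self]
  obtain ⟨w, hw⟩ := DFunLike.ne_iff.1 h3
  obtain ⟨j, hj⟩ := Function.ne_iff.1 hw
  have sj := surj_of_nilp (l := LinearMap.proj j) h0 hj
  let φ : V →* Multiplicative (Fin (n + 1) → ZMod (n + 1)) := MonoidHom.mk'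
    (fun v => .ofAdd fun i => ((S.σ g - 1) ^ (i : ℕ)) (S.π v) j) fun a b => by
      rw [← ofAdd_add, coe_mul, S.map_mul _ a.2 _ b.2]; simp only [map_add]; rfl
  have hφ : ∀ v ∈ V, ∀ i, (pfun φ v).toAdd i = ((S.σ g - 1) ^ (i : ℕ)) (S.π v) j := fun v hv i => by
    rw [pfun_of_mem _ hv]; rfl
  have hk : ∀ v ∈ V, v ∈ pker φ ↔ ∀ i : ℕ, ((S.σ g - 1) ^ i) (S.π v) j = 0 := fun v hv => by
    rw [← pfun_eq_one_iff hv]
    refine ⟨fun h i => ?_, fun h => Multiplicative.toAdd.injective (funext fun i => (hφ v hv i).trans (h i))⟩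
    rcases lt_or_ge i (n + 1) with e | e
    · exact (hφ v hv ⟨i, e⟩).symm.trans (by rw [h]; rfl)
    · rw [pow_eq_zero_of_le e h0]; rfl
  have hs : ∀ f, ∃ v ∈ V, pfun φ v = f := fun f => by
    obtain ⟨m, hm⟩ := sj f.toAdd
    obtain ⟨v, hv, rfl⟩ := S.surj m
    exact ⟨v, hv, Multiplicative.toAdd.injective (funext fun i => (hφ v hv i).trans (hm i))⟩
  have hc : ∀ v ∈ V, ⁅g, v⁆ ∈ pker φ ↔ ∀ i : ℕ, ((S.σ g - 1) ^ (i + 1)) (S.π v) j = 0 := fun v hv => by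
    rw [hk _ (S.comm g hv).1, (S.comm g hv).2]; simp only [pow_succ, End.mul_apply]
  have n1 : V ≤ N(pker φ) := hV.ab.norms (pker_le φ)
  have n2 : g ∈ N(pker φ) := mem_nrm.2 fun v hv => by
    simpa [commutatorElement_def] using mul_mem ((hc v (pker_le φ hv)).2 fun i => (hk v (pker_le φ hv)).1 hv _) hv
  obtain ⟨v, hv, h4⟩ := hs (.ofAdd (Pi.single (Fin.last n) (-S.π (g ^ (n + 1)) j)))
  have h5 : (v * g) ^ (n + 1) ∈ pker φ := by
    obtain ⟨a1, a2⟩ := S.norm g hv ((n + 1) ^ 1)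
    rw [← sub_one_pow_pred, pow_one, Nat.add_sub_cancel] at a2
    rw [pow_one] at a1
    rw [← inv_mul_cancel_right ((v * g) ^ (n + 1)) (g ^ (n + 1)), hk _ (mul_mem a1 h2), S.map_mul _ a1 _ h2, a2]
    rintro (_ | i)
    · have := hφ v hv (Fin.last n)
      rw [h4] at this
      simp at this ⊢
      rw [← this, neg_add_cancel]
    · rw [map_add, ← End.mul_apply, ← pow_add, pow_eq_zero_of_le (by omega) h0, pow_succ, End.mul_apply,
        ← (S.comm g h2).2, commutatorElement_eq_one_iff_mul_comm.2 (Commute.self_pow g _), S.map_one]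
      simp
  have n3 := mul_mem (n1 hv) n2
  have e1 : ∀ Y ≤ V, #(Y /ₛ pker φ) = #(pmap φ Y) := fun Y h => by rw [card_quo (h.trans n1), card_pmap φ h]
  obtain ⟨W, _, _, a1, ⟨e⟩⟩ := wr_shrink (B := V /ₛ pker φ) (t := coset(pker φ, v * g))
    (quo_norms _ le_normalizer_of_normal (mem_quo_of_mem n3 (mem_top _))) (hV.quo _)
    (by rw [e1 V le_rfl, (eq_top_iff' (pmap φ V)).2 fun f => let ⟨v, hv, e⟩ := hs f; e ▸ mem_pmap_of_mem φ hv hv]; simp)
    (by rw [← coset_pow n3, coset_of_mem h5])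
    (fun c => h1 ((V.mul_mem_cancel_left hv).1 (mem_of_coset_mem n3 (pker_le φ) c))) (by
      rw [← quo_inf_qpre, e1 _ inf_le_left]
      have : ∀ u ∈ V, u ∈ qpre(pker φ, C[coset(pker φ, v * g)]) ↔ ∀ i, i ≠ 0 → (pfun φ u).toAdd i = 0 :=
        fun u hu => by
        rw [mem_qpre, mem_cen1, eq_comm, coset_commute_iff n3 (n1 hu), show ⁅v * g, u⁆ = v * ⁅g, u⁆ * v⁻¹ * ⁅v, u⁆ by
          group, commutatorElement_eq_one_iff_mul_comm.2 (hV.ab.comm hv hu), hV.ab.comm hv (S.comm g hu).1,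
          mul_one, mul_inv_cancel_right, hc u hu]
        refine ⟨fun h i e => ?_, fun h => ⟨n1 hu, fun i => ?_⟩⟩
        · obtain ⟨i, rfl⟩ := Fin.exists_succ_eq.2 e
          exact (hφ u hu _).trans (h.2 i)
        · rcases lt_or_ge (i + 1) (n + 1) with e | e
          · exact (hφ u hu ⟨i + 1, e⟩).symm.trans (h _ (by simp))
          · rw [pow_eq_zero_of_le e h0]; rfl
      refine (Nat.card_eq_of_bijective (fun y : pmap φ _ => y.1.toAdd 0) ⟨fun a b h => ?_, fun c => ?_⟩).trans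
        (Nat.card_zmod _)
      · obtain ⟨u, u1, -, u2⟩ := mem_pmap.1 a.2
        obtain ⟨w, w1, -, w2⟩ := mem_pmap.1 b.2
        refine Subtype.ext (Multiplicative.toAdd.injective (funext fun i => ?_))
        rcases eq_or_ne i 0 with rfl | e
        · exact h
        · rw [← u2, ← w2, (this u u1.1).1 u1.2 i e, (this w w1.1).1 w1.2 i e]
      · obtain ⟨u, hu, e⟩ := hs (.ofAdd (Pi.single 0 c))
        exact ⟨⟨_, mem_pmap_of_mem φ hu ⟨hu, (this u hu).2 fun i h => by simp [e, h]⟩⟩, by simp [e]⟩)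
  refine ⟨W, inferInstance, inferInstance, a1, H18.involves_iff.2 ⟨V ⊔ ⟪v * g⟫, ?_⟩⟩
  have := pmapHom_surjective (qhom (pker φ)) (sup_le n1 (zpowers_le.2 n3))
  rw [← quo_zpowers n3, ← quo_sup n1 (zpowers_le.2 n3)] at e
  exact ⟨e.toMonoidHom.comp _, e.surjective.comp this⟩

theorem pl_one_of_no_wr (h2 : p ≠ 2) (hf : ¬ ∃ k, p = 2 ^ k + 1) (hs : IsPSolvable p G)
    (h : ∀ (W : Type) [Group W] [Finite W], IsWr p W → ¬ Involves W G) : PLengthLE p 1 G := by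
  obtain ⟨G', _, _, f, V, a1, a2, a3⟩ := exists_hred hp.out hs
  haveI := a2.normal
  obtain ⟨S⟩ := a2.rep
  refine pl_of_hred hp.out a1 a3 (PExp.pl_zero fun y hy => by_contra fun c => ?_)
  obtain ⟨n, hn⟩ := hy.exists_pow
  obtain ⟨i, -, b1, b2⟩ := exists_last_pow (S := ⊥) (by simpa using c) hn
  obtain ⟨g, hg⟩ := QuotientGroup.mk_surjective (y ^ p ^ i)
  rw [pow_succ, pow_mul, ← hg, mem_bot] at b1
  rw [← hg, mem_bot] at b2
  obtain ⟨W, _, _, c1, c2⟩ := S.wr a2.abe (mt (QuotientGroup.eq_one_iff g).2 b2)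
    ((QuotientGroup.eq_one_iff _).1 b1) fun e => by
    obtain ⟨q, Q, d1, -, -, d | ⟨-, n₀, m, d2, d3, d4, d5, -⟩⟩ := hh_B (n := 0) S.inj (a2.sol_quo hp.out)
      (a2.core_quo hp.out) (by rw [zero_add, pow_one, orderOf_eq_prime b1 b2]) e
    · have := hp.out.pos; rw [zero_add, pow_one] at d; omega
    obtain rfl := d2.antisymm d3
    rw [pow_one] at d5
    obtain rfl := (Nat.prime_dvd_prime_iff_eq Nat.prime_two d1).1 (Nat.prime_two.dvd_of_dvd_pow
      (d5 ▸ (hp.out.even_sub_one h2).two_dvd))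
    exact hf ⟨m, by have := hp.out.pos; omega⟩
  exact h W c1 (H18.Involves.trans c2 (H18.involves_of_surjective f a1))

end Cfsg.Agent.H1
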