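import Cfsg.Agent.H2.Pump
import Cfsg.Agent.GW.Base

/-! Intrinsic `2`-components with a unique involution. -/

set_option autoImplicit false

namespace Cfsg.Agent.H1.Ic

open Subgroup Cfsg.Agent.FT Cfsg.Agent.GW

/-- `K` is a `2`-component of `C(b)` and `b` is its only involution -/
structure Ic {G : Type*} [Group G] (K : Subgroup G) (b : G) : Prop where
  pc : PComp 2 K C[b]
  mem : b ∈ K
  inv : Invo b
  uniq : ∀ t ∈ K, Invo t → t = b

theorem Ic.cj {G : Type*} [Group G] [Finite G] {K : Subgroup G} {b : G} (h : Ic K b) (g : G) :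
    Ic (FT.cj g K) (g * b * g⁻¹) :=
  ⟨cj_cen1 g b ▸ h.pc.cj g, conj_mem_cj.2 h.mem, h.inv.conj g, fun t ht e => by
    obtain ⟨k, hk, rfl⟩ := mem_cj'.1 ht
    rw [h.uniq k hk (invo_conj.1 e)]⟩

end Cfsg.Agent.H1.Ic
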