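import Cfsg.Agent.H20.Icp1
import Cfsg.Agent.H20.Icp3
import Cfsg.Agent.H17.Icp4
import Cfsg.Agent.H16.Icp5
import Cfsg.Agent.GW.Icp6
import Cfsg.Agent.H13.Icp7

/-! Intrinsic `2`-components: `2`-elements of order at least `4` normalize. -/

set_option autoImplicit false
set_option linter.unusedSectionVars false
set_option linter.unusedVariables false

namespace Cfsg.Agent.H1.Ic

open Subgroup Cfsg.Agent.FT Cfsg.Agent.GW
open scoped commutatorElement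

variable {G : Type*} [Group G] [Finite G] {J K L D M Q T : Subgroup G} {a b g n x y z : G}

theorem q8_mem (hK : PComp 2 K M) : x ∈ cenMod 2 M K ↔ x ∈ M ∧ ⁅K, ⟪x⟫⁆ ≤ O[{2}ᶜ](K) := by
  rw [← zpowers_le, hK.le_cenMod, zpowers_le]

theorem q8_ne (hK : PComp 2 K M) (hL : PComp 2 L M) (h : K ≠ L) : L ≤ cenMod 2 M K :=
  hK.le_cenMod.2 ⟨hL.le, (hK.comm_of_ne hL h).trans inf_le_left⟩

theorem q8_sq (h : Ic K b) (hx : x ∈ K) (h2 : PiElt {2} x) (hc : x ∈ cenMod 2 C[b] K) : x * x = 1 :=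
  p4a h hx h2 ((q8_mem h.pc).1 hc).2

theorem q8_comm (hK : PComp 2 K M) (hL : PComp 2 L M) (h : K ≠ L) (hT : PGrp 2 T) (hx : x ∈ K) (hy : y ∈ L)
    (h1 : x ∈ T) (h2 : y ∈ T) : x * y = y * x :=
  commutatorElement_eq_one_iff_mul_comm.1 ((hT.piElt (mul_mem (mul_mem (mul_mem h1 h2) (inv_mem h1))
    (inv_mem h2))).eq_one_of_mem (pcore_pi _ K) ((hK.comm_of_ne hL h).trans inf_le_left
      (commutator_mem_commutator hx hy)))

theorem q8_inv (h : Ic K b) (hz : z ∈ K) (h2 : PiElt {2} z) (h1 : z ≠ 1) : b ∈ ⟪z⟫ := by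
  obtain ⟨u, hu, e⟩ := exists_invo (H := ⟪z⟫) (by
    by_contra e
    exact h1 (h2.eq_one_of_mem (p'grp_of_not_dvd e) (mem_zpowers z)))
  exact h.uniq u (zpowers_le.2 hz hu) e ▸ hu

theorem Ic.cjc (h : Ic J a) (hg : g ∈ C[a]) : Ic (FT.cj g J) a := by
  have := h.cj g
  rwa [mem_cen1.1 hg, mul_inv_cancel_right] at this

/-- the configuration of a counterexample -/
structure Cx (J K T : Subgroup G) (a b y : G) : Prop where
  j : Ic J a
  k : Ic K b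
  yK : y ∈ K
  y2 : y * y ≠ 1
  syl : Syl 2 T C[a]
  yT : y ∈ T
  yN : y ∉ N(J)

namespace Cx

theorem yp (h : Cx J K T a b y) : PiElt {2} y := h.syl.pi.piElt h.yT
theorem ya (h : Cx J K T a b y) : y * a = a * y := mem_cen1.1 (h.syl.le h.yT)
theorem bz (h : Cx J K T a b y) : b ∈ ⟪y * y⟫ :=
  q8_inv h.k (mul_mem h.yK h.yK) (h.syl.pi.piElt (mul_mem h.yT h.yT)) h.y2
theorem bT (h : Cx J K T a b y) : b ∈ T := zpowers_le.2 (mul_mem h.yT h.yT) h.bz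
theorem ba (h : Cx J K T a b y) : b * a = a * b := mem_cen1.1 (h.syl.le h.bT)
theorem yb (h : Cx J K T a b y) : y * b = b * y := mem_cen1.1 (h.k.pc.le h.yK)
theorem ne (h : Cx J K T a b y) : b ≠ a := fun e => h.yN ((e ▸ h.k.pc).norms_pcomp h.j.pc h.yK)
theorem aC (h : Cx J K T a b y) : a ∈ C[b] := mem_cen1.2 h.ba.symm

theorem aN (h : Cx J K T a b y) : a ∈ N(K) := by
  by_contra e
  refine h.y2 (q8_sq h.k h.yK h.yp (q8_ne h.k.pc (h.k.pc.cj_of_mem h.aC) (fun e' => e (cj_eq_self.1 e'.symm)) ?_))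
  have := (conj_mem_cj (g := a)).2 h.yK
  rwa [← h.ya, mul_inv_cancel_right] at this

theorem next (h : Cx J K T a b y) : Cx (cj y J) K T a b y :=
  ⟨h.j.cjc (h.syl.le h.yT), h.k, h.yK, h.y2, h.syl, h.yT, fun e => h.yN (by
    rw [← cj_nrm, mem_cj] at e; simpa using e)⟩

theorem jne (h : Cx J K T a b y) : J ≠ cj y J := fun e => h.yN (cj_eq_self.1 e.symm)

theorem s1 (h : Cx J K T a b y) : ¬ ⁅J, ⟪b⟫⁆ ≤ O[{2}ᶜ](J) := fun hc => by
  obtain ⟨q, -⟩ := h.j.pc.pqs.cent_cover h.k.inv.pGrp hc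
  rw [cen_zpowers] at q
  have hD : PComp 2 (piGen {2} (J ⊓ C[b])) (C[b] ⊓ C[a]) :=
    ⟨(piGen_nml _ _).subn.trans (inf_comm C[a] C[b] ▸ h.j.pc.subn.inf_right C[b]), q⟩
  have h1 : a ∈ piGen {2} (J ⊓ C[b]) := mem_piGen ⟨h.j.mem, h.aC⟩ h.j.inv.pElt
  have h2 : piGen {2} (J ⊓ C[b]) ≤ J := (piGen_le _ _).trans inf_le_left
  generalize piGen {2} (J ⊓ C[b]) = D at hD h1 h2 q
  rcases p1 h.k.pc h.j.inv h.aC h.aN hD with e | e
  · exact h.ne (h.k.uniq a (e h1) h.j.inv).symm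
  have h3 : ⟪y⟫ ≤ C[b] ⊓ C[a] := zpowers_le.2 ⟨h.k.pc.le h.yK, h.syl.le h.yT⟩
  have h4 := hD.normed_of_comm (norms_of_le h3) ((le_inf (((commC _ _).le.trans
    (commSS (zpowers_le.2 h.yK) le_rfl)).trans (e.trans h.k.pc.core_le)) (comm_le_of_le hD.le h3)).trans
      (pcore_inf_le _ inf_le_left)) (mem_zpowers y)
  have h5 : D ≤ cj y J := (cj_of_mem_nrm h4).ge.trans (cj_mono y h2)
  exact q.not_le_p' (pcore_pi _ J) (q.perf.ge.trans ((commSS h2 h5).trans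
    ((h.j.pc.comm_of_ne h.next.j.pc h.jne).trans inf_le_left)))

theorem s1' (h : Cx J K T a b y) : b ∉ cenMod 2 C[a] J := fun e => h.s1 ((q8_mem h.j.pc).1 e).2

theorem st (h : Cx J K T a b y) {L : Subgroup G} (hn : n ∈ T ⊓ L) : y * n * y⁻¹ ∈ T ⊓ cj y L :=
  mem_inf.2 ⟨T.mul_mem (T.mul_mem h.yT hn.1) (T.inv_mem h.yT), conj_mem_cj.2 hn.2⟩

theorem beta (h : Cx J K T a b y) (hn : n ∈ T ⊓ J) (e : n * b * n⁻¹ = a * b) :
    n * (y * n * y⁻¹) ∈ C[b] ∧ cj (n * (y * n * y⁻¹)) K ≠ K ∧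
      n * (y * n * y⁻¹) * y * (n * (y * n * y⁻¹))⁻¹ = a * y := by
  have aa := h.j.inv.sq
  have bb := h.k.inv.sq
  have m1 := h.st hn
  have m2 := h.st m1
  have m3 := h.st m2
  rw [mem_inf] at hn m1 m2 m3
  have h1 := h.next
  have h2 := h1.next
  have h3 := h2.next
  have c01 := q8_comm h.j.pc h1.j.pc h.jne h.syl.pi hn.2 m1.2 hn.1 m1.1
  have c12 := q8_comm h1.j.pc h2.j.pc h1.jne h.syl.pi m1.2 m2.2 m1.1 m2.1
  have na : n * a = a * n := mem_cen1.1 (h.syl.le hn.1)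
  have nb : n * b ≠ b * n := fun e' => h.j.inv.ne (by rwa [e', mul_inv_cancel_right, eq_comm, mul_eq_right] at e)
  have e0 : n * b = a * b * n := by rw [← e]; group
  have e1 : y * n * y⁻¹ * b = a * b * (y * n * y⁻¹) := by
    calc _ = y * n * (y⁻¹ * b * y) * y⁻¹ := by group
      _ = y * (a * b * n) * y⁻¹ := by rw [mul_assoc y⁻¹, ← h.yb, inv_mul_cancel_left, mul_assoc y, e0]
      _ = _ := by rw [← mul_assoc, ← mul_assoc, h.ya, mul_assoc a, h.yb]; group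
  have hC : n * (y * n * y⁻¹) ∈ C[b] := mem_cen1.2 (by
    calc _ = n * a * b * (y * n * y⁻¹) := by rw [mul_assoc, e1]; group
      _ = a * (a * b * n) * (y * n * y⁻¹) := by rw [na, mul_assoc a, e0]
      _ = a * a * b * (n * (y * n * y⁻¹)) := by group
      _ = _ := by rw [aa, one_mul])
  have z1 : y * (y * n * y⁻¹) * y⁻¹ * n⁻¹ ≠ 1 := fun e' => nb (by
    have : n ∈ C(⟪y * y⟫) := by
      rw [cen_zpowers, mem_cen1]
      calc _ = y * (y * n * y⁻¹) * y⁻¹ * (y * y) := by rw [mul_inv_eq_one.1 e']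
        _ = _ := by group
    exact (mem_cen.1 this b h.bz).symm)
  have ez : n * (y * n * y⁻¹) * y * (n * (y * n * y⁻¹))⁻¹ = (y * (y * n * y⁻¹) * y⁻¹ * n⁻¹)⁻¹ * y := by
    calc _ = n * (y * n * y⁻¹) * (y * n * y⁻¹ * (y * (y * n * y⁻¹) * y⁻¹))⁻¹ * y := by group
      _ = _ := by rw [c12]; group
  have zT := mul_mem m2.1 (inv_mem hn.1)
  have hT := mul_mem hn.1 m1.1
  by_cases hk : cj (n * (y * n * y⁻¹)) K = K
  · have k1 := hk.le (conj_mem_cj.2 h.yK)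
    rw [ez, mul_mem_cancel_right h.yK, inv_mem_iff] at k1
    exact (h1.s1' (zpowers_le.2 (mul_mem (q8_ne h1.j.pc h2.j.pc h1.jne m2.2)
      (inv_mem (q8_ne h1.j.pc h.j.pc h.jne.symm hn.2))) (q8_inv h.k k1 (h.syl.pi.piElt zT) z1))).elim
  refine ⟨hC, hk, ?_⟩
  have c := q8_comm h.k.pc (h.k.pc.cj_of_mem hC) (Ne.symm hk) h.syl.pi h.yK (conj_mem_cj.2 h.yK) h.yT
    (mul_mem (mul_mem hT h.yT) (inv_mem hT))
  rw [ez, ← mul_assoc, mul_left_inj] at c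
  have c' : y * (y * n * y⁻¹) * y⁻¹ * n⁻¹ = y * (y * (y * n * y⁻¹) * y⁻¹) * y⁻¹ * (y * n * y⁻¹)⁻¹ := by
    calc _ = y * (y⁻¹ * (y * (y * n * y⁻¹) * y⁻¹ * n⁻¹) * y) * y⁻¹ := by group
      _ = y * (y * (y * n * y⁻¹) * y⁻¹ * n⁻¹) * y⁻¹ := by
        rw [mul_assoc y⁻¹, ← (Commute.inv_right_iff.1 (show Commute y _ from c)).eq, inv_mul_cancel_left]
      _ = _ := by group
  have q1 := q8_ne h.j.pc h1.j.pc h.jne
  by_cases h4 : J = cj y (cj y J)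
  · have k1 := mul_mem (h4.ge m2.2) (inv_mem hn.2)
    have k2 := q8_sq h.j k1 (h.syl.pi.piElt zT) (c' ▸ mul_mem (q1 ((cj_mono y h4.ge) m3.2)) (inv_mem (q1 m1.2)))
    rw [ez, h.j.uniq _ k1 (invo_of k2 z1), h.j.inv.inv]
  exfalso
  have h5 : J ≠ cj y (cj y (cj y J)) := fun e' => h.yN (by
    rw [cj_cj, cj_cj, eq_comm, cj_eq_self, show y * y * y = y ^ 3 by simp [pow_succ]] at e'
    obtain ⟨k, hk⟩ := h.yp.exists_pow
    exact zpowers_le.2 e' (mem_zpowers_pow_iff.2 (Nat.Coprime.coprime_dvd_right (orderOf_dvd_of_pow_eq_one hk)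
      (Nat.Coprime.pow_right k (by norm_num)))))
  have k1 := mul_mem (inv_mem (q8_ne h.j.pc h2.j.pc h4 m2.2))
    (c' ▸ mul_mem (q8_ne h.j.pc h3.j.pc h5 m3.2) (inv_mem (q1 m1.2)))
  rw [inv_mul_cancel_left, inv_mem_iff] at k1
  have k2 := q8_sq h.j hn.2 (h.syl.pi.piElt hn.1) k1
  by_cases k3 : n = 1
  · exact nb (by rw [k3, one_mul, mul_one])
  · exact nb (by rw [h.j.uniq n hn.2 (invo_of k2 k3), h.ba])

theorem ysq (h : Cx J K T a b y) (hg : g ∈ C[b]) (hk : cj g K ≠ K) (e : g * y * g⁻¹ = a * y) : y * y = b := by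
  have h1 := (conj_mem_cj (g := g)).2 h.yK
  have h2 := mul_mem h1 h1
  rw [e, mul_assoc, ← mul_assoc y, h.ya, mul_assoc, ← mul_assoc, h.j.inv.sq, one_mul] at h2
  have h3 := mul_mem h.yK h.yK
  exact h.k.uniq _ h3 (invo_of (q8_sq h.k h3 (h.syl.pi.piElt (mul_mem h.yT h.yT))
    (q8_ne h.k.pc (h.k.pc.cj_of_mem hg) hk.symm h2)) h.y2)

theorem kb (h : Cx J K T a b y) (hn : n ∈ T ⊓ J) (e : n * b * n⁻¹ = a * b) : b ∈ J ⊔ cj y J := by
  obtain ⟨h1, h2, h3⟩ := h.beta hn e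
  have hT := T.mul_mem hn.1 (h.st hn).1
  rw [mem_inf] at hn
  generalize n * (y * n * y⁻¹) = g at h1 h2 h3 hT
  have yy := h.ysq h1 h2 h3
  have k1 := h.k.cjc h1
  have y1 : a * y ∈ cj g K := h3 ▸ conj_mem_cj.2 h.yK
  obtain ⟨R, hR, hTR⟩ := (h.syl.pi.mono (inf_le_left : T ⊓ C[b] ≤ T)).exists_syl inf_le_right
  have yR : y ∈ R := hTR ⟨h.yT, h.k.pc.le h.yK⟩
  obtain ⟨m, hm, -, m2⟩ := p4b h.k (hR.inf_subn h.k.pc.subn) ⟨yR, h.yK⟩ yy
  have c := q8_comm h.k.pc k1.pc h2.symm hR.pi hm.2 y1 hm.1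
    (hTR ⟨h3 ▸ T.mul_mem (T.mul_mem hT h.yT) (T.inv_mem hT), k1.pc.le y1⟩)
  have mb : m * b = b * m := mem_cen1.1 (h.k.pc.le hm.2)
  have ma : m * a * m⁻¹ = a * b := by
    calc _ = m * (a * y) * m⁻¹ * (m * y * m⁻¹)⁻¹ := by group
      _ = _ := by rw [c, m2, mul_inv_cancel_right, inv_inv, mul_assoc, yy]
  have g1 : m * n * b * (m * n)⁻¹ = a := by
    calc _ = m * (n * b * n⁻¹) * m⁻¹ := by group
      _ = m * a * m⁻¹ * (m * b * m⁻¹) := by rw [e]; group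
      _ = _ := by rw [ma, mb, mul_inv_cancel_right, mul_assoc, h.k.inv.sq, mul_one]
  have g2 : m * n * a * (m * n)⁻¹ = a * b := by
    rw [← ma, mul_assoc m, mem_cen1.1 (h.syl.le hn.1)]; group
  have A := h.k.cj (m * n)
  have B := k1.cj (m * n)
  rw [g1] at A B
  have h4 : a ∈ K ⊔ cj g K := by
    simpa using mul_mem (mem_sup_right (S := K) y1) (inv_mem (mem_sup_left h.yK))
  have h5 := (conj_mem_cj (g := m * n)).2 h4
  rw [g2, cj_sup, mul_mem_cancel_left (mem_sup_left A.mem)] at h5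
  generalize cj (m * n) K = K₀ at A h5
  generalize cj (m * n) (cj g K) = K₁ at B h5
  have key : ∀ {J : Subgroup G}, Cx J K T a b y → J = K₀ ∨ J = K₁ := fun h' => by
    by_contra! e'
    exact h'.s1' (sup_le (q8_ne h'.j.pc A.pc e'.1) (q8_ne h'.j.pc B.pc e'.2) h5)
  rcases key h with e1 | e1 <;> rcases key h.next with e2 | e2
  · exact (h.jne (e1.trans e2.symm)).elim
  · rwa [e2, e1]
  · rwa [e2, e1, sup_comm]
  · exact (h.jne (e1.trans e2.symm)).elim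

theorem fin (h : Cx J K T a b y) (hb : b ∈ J ⊔ cj y J) : False := by
  obtain ⟨⟨n, hn, n2, e⟩, h0⟩ := p6 h.j h.next.j h.jne h.syl h.k.inv h.bT hb h.s1 h.next.s1
  have m1 := h.st hn
  obtain ⟨g, hg, eg⟩ := h0 n hn _ m1 n2 (by rw [conj_mul, n2, h.ya, mul_inv_cancel_right])
  obtain ⟨h1, h2, h3⟩ := h.beta hn e
  have c01 := q8_comm h.j.pc h.next.j.pc h.jne h.syl.pi hn.2 m1.2 hn.1 m1.1
  have nC : n ∈ C[n * (y * n * y⁻¹)] := mem_cen1.2 (by rw [mul_assoc n _ n, ← c01])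
  have aC : a ∈ C[n * (y * n * y⁻¹)] := cen1_comm.1 (h.syl.le (T.mul_mem hn.1 m1.1))
  generalize n * (y * n * y⁻¹) = u at eg h1 h2 h3 nC aC
  have hu : Invo u := eg ▸ h.k.inv.conj g
  have yy := h.ysq h1 h2 h3
  have uN : u ∉ N(K) := fun e => h2 (cj_of_mem_nrm e)
  obtain ⟨D, hD, -, -, d1, d2⟩ := p3 h.k.pc hu h1 uN
  have h4 := d1 y h.yK h.yp (by rw [h3, ← mul_assoc, h.ya])
  rw [h3, ← mul_assoc, h.ya, mul_assoc, yy] at h4
  have bC : b ∈ C[u] := cen1_comm.1 h1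
  rw [inf_comm] at hD
  have h5 : D ≤ L[2](C[u]) := hD.le_play.trans (cen_zpowers b ▸ l_balance h.k.inv.pGrp (zpowers_le.2 bC))
  have h6 : b ∈ L[2](C[u]) := by
    have := (play_nml 2 C[u]).conj_mem (inv_mem nC) (h5 h4)
    rw [← e] at this
    simpa [mul_assoc] using this
  have k1 := h.k.cjc h1
  have y1 : a * y ∈ cj u K := h3 ▸ conj_mem_cj.2 h.yK
  have key : ∀ {L : Subgroup G}, Ic L u → L ≤ cenMod 2 C[u] D := fun {L} hL => by
    refine (FT.le_cenMod Nat.prime_two (hD.le.trans inf_le_left)).2 ⟨hL.pc.le, ?_⟩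
    rcases p1 hL.pc h.k.inv bC (hL.pc.nml_play.nrm h6) hD with e' | e'
    · refine (uN ?_).elim
      rw [← hL.uniq _ (e' h4) (invo_of (by
        rw [mul_assoc, ← mul_assoc b, h.ba, mul_assoc, h.k.inv.sq, mul_one, h.j.inv.sq]) fun e'' =>
          h.ne (by rw [eq_inv_of_mul_eq_one_right e'', h.j.inv.inv]))]
      exact mul_mem h.aN (le_nrm K h.k.mem)
    · exact (commC _ _).le.trans (e'.trans hL.pc.core_le)
  have h7 : a ∈ K ⊔ cj u K := by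
    simpa using mul_mem (mem_sup_right (S := K) y1) (inv_mem (mem_sup_left h.yK))
  have h8 := (conj_mem_cj (g := g)).2 h7
  rw [mem_cen1.1 hg, mul_inv_cancel_right, cj_sup] at h8
  have h9 := ((FT.le_cenMod Nat.prime_two (hD.le.trans inf_le_left)).1 (zpowers_le.2
    (sup_le (key (eg ▸ h.k.cj g)) (key (eg ▸ k1.cj g)) h8))).2
  have h10 : ⟪a⟫ ≤ C[u] ⊓ C[b] := zpowers_le.2 ⟨aC, h.aC⟩
  have h11 := d2 ⟪a⟫ (zpowers_le.2 ⟨h.aC, h.aN⟩) (hD.comm_le_core (norms_of_le h10)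
    ((le_inf h9 (comm_le_of_le hD.le h10)).trans (pcore_inf_le _ inf_le_left)))
  refine h.y2 (q8_sq h.k h.yK h.yp ?_)
  rw [← mul_mem_cancel_left ((q8_mem h.k.pc).2 ⟨h.aC, h11⟩)]
  exact q8_ne h.k.pc k1.pc h2.symm y1

theorem false (h : Cx J K T a b y) : False := by
  have h1 := p7 h.j h.k h.aN
  rcases p5 h.j (h.syl.inf_subn h.j.pc.subn) h.k.inv h.ne h1
    (normsI (norms_of_le (zpowers_le.2 h.bT)) (zpowers_le.2 h1) (mem_zpowers b)) with e | ⟨n, hn, e⟩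
  exacts [h.s1 e, h.fin (h.kb hn e)]

end Cx

theorem p8 (hJ : Ic J a) (hK : Ic K b) (hy : y ∈ K) (h2 : PiElt {2} y) (h4 : y * y ≠ 1) (hc : y * a = a * y) :
    y ∈ N(J) := by
  by_contra hn
  obtain ⟨T, hT, h⟩ := h2.zpowers.exists_syl (zpowers_le.2 (mem_cen1.2 hc))
  exact Cx.false ⟨hJ, hK, hy, h4, hT, h (mem_zpowers y), hn⟩

end Cfsg.Agent.H1.Ic
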