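import Cfsg.Agent.H1.HHB

/-! Lower bounds for the degree of a representation of `Q⟨x⟩` with `x` acting nontrivially on `Q` (Itô). -/

set_option autoImplicit false
set_option linter.unusedSectionVars false
set_option linter.style.haveILetI false

namespace Cfsg.Agent.H1

open Cfsg Module Subgroup Cfsg.Agent.H28 Cfsg.Agent.FT Function
open scoped commutatorElement TensorProduct

universe u v

variable {k : Type*} [Field k] {G : Type u} [Group G] [Finite G] {V : Type v} [AddCommGroup V]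
  [Module k V] [FiniteDimensional k V] {ρ : Representation k G V} {A Q : Subgroup G} {x : G}
  {U : Submodule k V} {q t : ℕ} {c : G → k}

theorem card_le_of_wt {ι : Type} [Fintype ι] (d : ι → G → k) (v : ι → V) (hU : ∀ i, v i ∈ U)
    (hv : ∀ i, v i ∈ wsp ρ A (d i)) (h0 : ∀ i, v i ≠ 0) (hd : ∀ i j, j ≠ i → ∃ z ∈ A, d j z ≠ d i z) :
    Fintype.card ι ≤ finrank k U := by
  classical
  refine LinearIndependent.fintype_card_le_finrank (b := fun i => (⟨v i, hU i⟩ : U))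
    (Fintype.linearIndependent_iff.2 fun g hg i => ?_)
  have := congrArg Subtype.val hg
  simp only [AddSubmonoidClass.coe_finset_sum, SetLike.val_smul, ZeroMemClass.coe_zero] at this
  rw [← Finset.add_sum_erase _ _ (Finset.mem_univ i)] at this
  exact (smul_eq_zero.1 (wsp_indep d _ (fun j hj => hd i j (Finset.ne_of_mem_erase hj)) _ _
    (fun j _ => Submodule.smul_mem _ _ (hv j)) (Submodule.smul_mem _ _ (hv i)) this)).resolve_right (h0 i)

theorem wcj_ne (ht : t.Prime) (hx : PiElt {t} x) (hn : x ∈ N(A)) (h : x ∉ wst A c) (i j : Fin t) (e : j ≠ i) :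
    ∃ z ∈ A, wcj (x ^ (j : ℕ)) c z ≠ wcj (x ^ (i : ℕ)) c z := by
  by_contra! h1
  have key : ∀ i j : Fin t, i < j → (∀ z ∈ A, wcj (x ^ (j : ℕ)) c z = wcj (x ^ (i : ℕ)) c z) → False := fun i j a b => by
    obtain ⟨m, hm⟩ := Nat.exists_eq_add_of_le (show (i : ℕ) ≤ j from a.le)
    refine h (hx.mem_of_pow_mem ((p'nat_iff ht).2 (Nat.not_dvd_of_pos_of_lt (show 0 < m by omega) (by omega)))
      ⟨pow_mem hn m, fun z hz => ?_⟩)
    simpa [wcj, hm, pow_add, mul_assoc] using (b _ (conj_mem (pow_mem hn j) hz)).symm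
  exact e.lt_or_gt.elim (key j i · fun z hz => (h1 z hz).symm) (key i j · h1)

theorem not_mem_wst (hU : RInv ρ ⟪x⟫ U) (h : ¬ ⁅A, ⟪x⟫⁆ ≤ rcent ρ (U ⊓ wsp ρ A c)) : x ∉ wst A c := fun e =>
  h (comm_wst_le inf_le_right fun g hg v hv => ⟨hU g hg v hv.1, rInv_wsp (zpowers_le.2 e) g hg v hv.2⟩)

/-- jointly nondegenerate invariant forms -/
def DualOn (ρ : Representation k G V) (A : Subgroup G) : Prop := ∃ (n : ℕ) (B : Fin n → LinearMap.BilinForm k V),
  (∀ g ∈ A, ∀ j v w, B j (ρ g v) (ρ g w) = B j v w) ∧ ∀ v, (∀ j w, B j v w = 0) → v = 0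

theorem DualOn.mono (h : DualOn ρ Q) (hA : A ≤ Q) : DualOn ρ A :=
  let ⟨n, B, h1, h2⟩ := h; ⟨n, B, fun g hg => h1 g (hA hg), h2⟩

theorem DualOn.bc (h : DualOn ρ A) (K : Type*) [Field K] [Algebra k K] : DualOn (bcRep K ρ) A := by
  classical
  obtain ⟨n, B, h1, h2⟩ := h
  let b := finBasis k V
  obtain ⟨L, hL⟩ := LinearMap.exists_leftInverse_of_injective (LinearMap.pi fun z : Fin n × Fin (finrank k V) =>
    (B z.1).flip (b z.2)) (LinearMap.ker_eq_bot'.2 fun v hv => h2 v fun j w => by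
      rw [show B j v = 0 from b.ext fun i => congrFun hv (j, i)]; rfl)
  refine ⟨n, fun j => (B j).baseChange K, fun g hg j v w => ?_, fun v hv => ?_⟩
  · induction v with
    | zero => simp
    | add a b ha hb => simp [ha, hb]
    | tmul a v => induction w with
      | zero => simp
      | add a b ha hb => simp only [map_add, ha, hb]
      | tmul a w => simp [bcRep_apply, h1 g hg]
  · have : ∀ v : K ⊗[k] V, v = ∑ z : Fin n × Fin (finrank k V), (B z.1).baseChange K v (1 ⊗ₜ b z.2) •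
        ((1 : K) ⊗ₜ[k] L (Pi.single z 1)) := fun v => by
      induction v with
      | zero => simp
      | add a b ha hb => simp only [map_add, LinearMap.add_apply, add_smul, Finset.sum_add_distrib, ← ha, ← hb]
      | tmul a v =>
        conv_lhs => rw [← congr($hL v).trans (LinearMap.id_apply v), LinearMap.comp_apply, LinearMap.pi_apply_eq_sum_univ,
          TensorProduct.tmul_sum]
        refine Finset.sum_congr rfl fun z _ => ?_
        rw [LinearMap.BilinForm.baseChange_tmul, TensorProduct.smul_tmul', TensorProduct.tmul_smul, smul_eq_mul,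
          mul_one, mul_one, TensorProduct.smul_tmul']
        congr 2; ext y; simp [Pi.single_apply, eq_comm]
    rw [this v]; simp [hv]

theorem DualOn.inv (h : DualOn ρ A) (hk : (#A : k) ≠ 0) (hc : wsp ρ A c ≠ ⊥) : wsp ρ A (fun z => c z⁻¹) ≠ ⊥ := by
  obtain ⟨n, B, h1, h2⟩ := h
  obtain ⟨v, hv, h0⟩ := Submodule.exists_mem_ne_zero_of_ne_bot hc
  obtain ⟨j, w, h3⟩ : ∃ j w, B j v w ≠ 0 := by by_contra! e; exact h0 (h2 v e)
  letI := Fintype.ofFinite A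
  refine (Submodule.ne_bot_iff _).2 ⟨∑ a : A, c a • ρ a w, fun z hz => ?_, fun e => mul_ne_zero hk h3 ?_⟩
  · rw [map_sum, Finset.smul_sum, ← sum_mul_left_subgroup A (fun a => c z⁻¹ • c a • ρ a w) hz]
    refine Finset.sum_congr rfl fun a _ => ?_
    rw [smul_smul, ← wt_mul hc (inv_mem hz) (mul_mem hz a.2), inv_mul_cancel_left, map_smul, map_mul]; rfl
  · have := congrArg (B j v) e
    rw [map_sum, map_zero, Finset.sum_congr rfl fun a _ => (by
      rw [map_smul, ← LinearMap.smul_apply, ← map_smul, ← hv a a.2, h1 a a.2] : _ = B j v w)] at this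
    simpa using this

theorem inv_ne (hc : wsp ρ A c ≠ ⊥) (ho : Odd #A) {z : G} (hz : z ∈ A) (h : z ∉ rcent ρ (wsp ρ A c)) :
    c z⁻¹ ≠ c z := fun e => h ((zpowers_pow_of_coprime (n := 2) (x := z) (Nat.coprime_two_left.2
      (ho.of_dvd_nat (orderOf_dvd_natCard A hz)))).ge.trans (zpowers_le.2 ((wt_eq_one_iff hc (pow_mem hz 2)).1 (by
        rw [sq, wt_mul hc hz hz, ← (wt_eq_one_iff hc (one_mem A)).2 (one_mem _), ← inv_mul_cancel z,
          wt_mul hc (inv_mem hz) hz, e]))) (mem_zpowers z))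

variable [IsAlgClosed k]

theorem ito_ab (ht : t.Prime) (hA : Ab A) (hk : (#A : k) ≠ 0) (hx : PiElt {t} x) (hn : x ∈ N(A))
    (hU : RInv ρ (A ⊔ ⟪x⟫) U) (h : ¬ ⁅A, ⟪x⟫⁆ ≤ rcent ρ U) : t ≤ finrank k U := by
  obtain ⟨c, h1, h2⟩ := exists_wt (hU.mono le_sup_left) hA hk (comm_le_left (zpowers_le.2 hn)) h
  obtain ⟨v, hv, h0⟩ := Submodule.exists_mem_ne_zero_of_ne_bot h1
  simpa using card_le_of_wt (fun i : Fin t => wcj (x ^ (i : ℕ)) c) (fun i => ρ (x ^ (i : ℕ)) v)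
    (fun i => hU _ (mem_sup_right (pow_mem (mem_zpowers x) _)) v hv.1) (fun i => map_mem_wsp (pow_mem hn _) hv.2)
    (fun i e => h0 ((ρ.apply_bijective _).1 (e.trans (map_zero _).symm)))
    (wcj_ne ht hx hn (not_mem_wst (hU.mono le_sup_right) h2))

theorem dual_ab (ht : t.Prime) (h2 : t ≠ 2) (hA : Ab A) (hk : (#A : k) ≠ 0) (ho : Odd #A) (hx : PiElt {t} x)
    (hn : x ∈ N(A)) (hd : DualOn ρ A) (h : ¬ ⁅A, ⟪x⟫⁆ ≤ rcent ρ ⊤) : 2 * t ≤ finrank k V := by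
  obtain ⟨c, h1, h3⟩ := exists_wt (rInv_top ρ A) hA hk (comm_le_left (zpowers_le.2 hn)) h
  have h4 := not_mem_wst (rInv_top ρ _) h3
  rw [top_inf_eq] at h1 h3
  obtain ⟨v, hv, h0⟩ := Submodule.exists_mem_ne_zero_of_ne_bot h1
  obtain ⟨w, hw, h0'⟩ := Submodule.exists_mem_ne_zero_of_ne_bot (hd.inv hk h1)
  have h5 : x ∉ wst A fun z => c z⁻¹ := fun e => h4 ⟨hn, fun z hz => by simpa [mul_assoc] using e.2 _ (inv_mem hz)⟩
  have h6 : ∀ i j : ℕ, ∃ z ∈ A, wcj (x ^ j) (fun z => c z⁻¹) z ≠ wcj (x ^ i) c z := fun i j => by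
    by_contra! e
    obtain ⟨z, z1, z2⟩ := SetLike.not_le_iff_exists.1 h3
    have z3 := comm_le_left (zpowers_le.2 hn) z1
    have a1 : (x ^ i)⁻¹ * x ^ j ∈ ⟪x⟫ := mul_mem (inv_mem (pow_mem (mem_zpowers x) _)) (pow_mem (mem_zpowers x) _)
    have a2 : ∀ z ∈ A, c ((x ^ i)⁻¹ * x ^ j * z * ((x ^ i)⁻¹ * x ^ j)⁻¹) = c z⁻¹ := fun z hz => by
      simpa [wcj, mul_assoc] using (e _ (conj_mem (pow_mem hn j) hz)).symm
    generalize (x ^ i)⁻¹ * x ^ j = y at a1 a2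
    have a3 := zpowers_le.2 hn a1
    have a4 : y ∈ wst A c := (hx.of_mem_zpowers a1).mem_of_pow_mem ((p'nat_iff ht).2 fun d =>
      h2 ((Nat.prime_dvd_prime_iff_eq ht Nat.prime_two).1 d)) ⟨pow_mem a3 2, fun z hz => by
        rw [← inv_inv z, ← a2 _ (inv_mem hz), ← inv_inv (y * z⁻¹ * y⁻¹), ← a2 _ (inv_mem (conj_mem a3 (inv_mem hz)))]
        simp [sq, mul_assoc]⟩
    exact inv_ne h1 ho z3 z2 ((a2 z z3).symm.trans (a4.2 z z3))
  have := card_le_of_wt (U := ⊤) (Sum.elim (fun i : Fin t => wcj (x ^ (i : ℕ)) c) fun i : Fin t =>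
    wcj (x ^ (i : ℕ)) fun z => c z⁻¹) (Sum.elim (fun i => ρ (x ^ (i : ℕ)) v) fun i => ρ (x ^ (i : ℕ)) w)
    (fun _ => trivial) (Sum.rec (fun i => map_mem_wsp (pow_mem hn _) hv) fun i => map_mem_wsp (pow_mem hn _) hw)
    (Sum.rec (fun i e => h0 ((ρ.apply_bijective _).1 (e.trans (map_zero _).symm)))
      fun i e => h0' ((ρ.apply_bijective _).1 (e.trans (map_zero _).symm))) (by
      rintro (i | i) (j | j) e
      · exact wcj_ne ht hx hn h4 i j fun d => e (d ▸ rfl)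
      · exact h6 i j
      · exact (h6 j i).imp fun z hz => ⟨hz.1, hz.2.symm⟩
      · exact wcj_ne ht hx hn h5 i j fun d => e (d ▸ rfl))
  simpa [two_mul] using this

theorem ito_aux (ht : t.Prime) (hq : q.Prime) (hne : q ≠ t) (hk : (q : k) ≠ 0) (μ : ℕ) : ∀ {G : Type u} [Group G]
    [Finite G] {V : Type v} [AddCommGroup V] [Module k V] [FiniteDimensional k V] (ρ : Representation k G V)
    (U : Submodule k V) (Q : Subgroup G) (x : G), (rcent ρ U).relIndex Q = μ → x ∈ N(Q) → PGrp q Q → PiElt {t} x →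
    RInv ρ (Q ⊔ ⟪x⟫) U → ¬ ⁅Q, ⟪x⟫⁆ ≤ rcent ρ U →
    t ≤ finrank k U ∨ q = 2 ∧ ∃ m, 2 ^ m + 1 = t ∧ 2 ^ m ≤ finrank k U := by
  induction μ using Nat.strong_induction_on with | _ μ ih =>
  suffices key : ∀ {G : Type u} [Group G] [Finite G] {V : Type v} [AddCommGroup V] [Module k V]
      [FiniteDimensional k V] (ρ : Representation k G V) (Q : Subgroup G) (x : G), #Q = μ → Injective ρ →
      x ∈ N(Q) → PGrp q Q → PiElt {t} x → ¬ ⟪x⟫ ≤ C(Q) →
      t ≤ finrank k V ∨ q = 2 ∧ ∃ m, 2 ^ m + 1 = t ∧ 2 ^ m ≤ finrank k V by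
    intro G _ _ V _ _ _ ρ U Q x hμ hx hQ h1 hU h2
    obtain ⟨G', _, _, f, σ, a1, a2, -⟩ := exists_faithful hU
    have b1 : x ∈ Q ⊔ ⟪x⟫ := mem_sup_right (mem_zpowers x)
    refine key σ (pmap f Q) (pfun f x) ?_ a1 (pmap_nrm_le f Q (mem_pmap_of_mem f b1 hx)) (hQ.pmap f) (h1.pfun f)
      fun c => h2 ?_
    · rw [card_pmap f le_sup_left, a2, inf_comm (Q ⊔ ⟪x⟫), ← inf_relIndex_right, inf_assoc,
        inf_of_le_right (le_sup_left : Q ≤ _), inf_relIndex_right, hμ]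
    · rw [← pmap_zpowers f b1, pmap_cents_iff le_sup_right le_sup_left, a2, Subgroup.commutator_comm] at c
      exact c.trans inf_le_right
  intro G _ _ V _ _ _ ρ Q x hμ hf hx hQ h1 h2
  have hK := rcent_top hf
  have hK' := (MonoidHom.ker_eq_bot_iff _).2 hf
  have hc : ∀ X ≤ Q, (#X : k) ≠ 0 := fun X hX => by
    obtain ⟨a, ha⟩ := (hQ.mono hX).exists_pow (card_ne_zero X)
    rw [ha, Nat.cast_pow]; exact pow_ne_zero a hk
  have hcop : Cop Q ⟪x⟫ := hQ.cop_of_ne h1.zpowers hne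
  have n1 := zpowers_le.2 hx
  by_cases hmin : ∀ X < Q, ⟪x⟫ ≤ N(X) → X ≤ C(⟪x⟫)
  swap
  · push Not at hmin
    obtain ⟨X, a1, a2, a3⟩ := hmin
    exact finrank_top k V ▸ ih _ (by rw [hK, relIndex_bot_left, ← hμ]; exact card_lt a1) ρ ⊤ X x
      rfl (zpowers_le.1 a2) (hQ.mono a1.le) h1 (rInv_top _ _) (by rwa [hK, le_bot_iff, comm_eq_bot])
  obtain ⟨b1, b2, b3, -⟩ := minimal_action n1 (le_nrm _) le_rfl hcop.symm hQ.sol h2 hmin
  have nZ := norms_center n1 (mem_zpowers x)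
  by_cases hZ : x ∈ C(Z(Q))
  swap
  · exact .inl (finrank_top k V ▸ ito_ab ht (ab_center Q) (hc _ inf_le_left) h1 nZ (rInv_top _ _)
      (by rwa [hK, le_bot_iff, comm_eq_bot', zpowers_le]))
  have c1 : Q ⊔ ⟪x⟫ ≤ C(Z(Q)) := sup_le (centsC inf_le_right) (zpowers_le.2 hZ)
  have c2 : ¬ Ab Q := fun e => h2 (zpowers_le.2 (e.center ▸ hZ))
  obtain ⟨U, d1, d2⟩ := exists_simple_off (ρ := ρ) (Q ⊔ ⟪x⟫) (hc _ le_rfl) (sup_le (le_nrm Q) n1)
    (by rw [hK', le_bot_iff]; exact fun e => c2 (e ▸ ab_bot))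
  suffices t ≤ finrank k U ∨ q = 2 ∧ ∃ m, 2 ^ m + 1 = t ∧ 2 ^ m ≤ finrank k U from this.imp (·.trans U.finrank_le)
    (And.imp_right (Exists.imp fun m => And.imp_right (·.trans U.finrank_le)))
  by_cases d3 : rcent ρ U ⊓ Q = ⊥
  swap
  · refine ih _ ?_ ρ U Q x rfl hx hQ h1 d1.2.1 fun c => d1.1 (eq_bot_iff.2
      (d2 ▸ le_inf le_rfl (le_rcent_iff.1 (b1 ▸ c))))
    have := card_mul_relIndex (inf_le_right : rcent ρ U ⊓ Q ≤ Q)
    rw [inf_relIndex_right] at this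
    nlinarith [(one_lt_card_iff_ne_bot _).2 d3, relIndex_pos (rcent ρ U) Q]
  have hsc : ∀ z ∈ Z(Q), z ≠ 1 → ∃ c : k, c ≠ 1 ∧ ∀ v ∈ U, ρ z v = c • v := fun z hz h3 => by
    obtain ⟨c, h4⟩ := RSimple.scalar d1 (inf_le_left.trans le_sup_left) c1 z hz
    exact ⟨c, fun e => h3 (d3.le ⟨fun v hv => by simpa [e] using h4 v hv, hz.1⟩), h4⟩
  obtain ⟨W, e1, e2⟩ := exists_rSimple_le ρ Q (d1.2.1.mono le_sup_left) d1.1
  haveI := e2.isIrreducible
  obtain ⟨e4, e5⟩ := class_two_aux ((le_inf Q.commutator_le_self b2).trans b3) hsc e2.2.1 e1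
  have e6 := finrank_sq_eq_index (subRep ρ Q W e2.2.1) e4 e5
  have e7 := Submodule.finrank_mono e1
  have nQ := (center_nml Q).nrm
  have e8 := P22.card_modEq_cen ht (h1.zpowers.quo Z(Q)) (quo_norms Z(Q) n1)
  rw [quo_zpowers nZ, cen_zpowers, ← strong_coprime_quotient_cent1 hx nZ (Nat.card_zpowers x ▸ hcop), card_quo nQ,
    (quo_eq_bot (inf_le_left.trans nQ)).2 (le_inf inf_le_left (cen_zpowers x ▸ b3)), card_bot', center_eq_map, relIndex,
    so_map, ← e6] at e8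
  have e9 : finrank k W ≠ 1 := fun e => c2 (by
    rw [e, one_pow, eq_comm, index_eq_one] at e6
    exact ab_iff.2 fun a ha => mem_center_coe_iff.1 (e6.ge (mem_top ⟨a, ha⟩)))
  obtain ⟨a, ha⟩ := hQ.exists_pow (card_ne_zero Q)
  obtain ⟨m, -, hm⟩ := (Nat.dvd_prime_pow hq).1 (((dvd_pow_self _ two_ne_zero).trans e6.dvd).trans
    (ha ▸ (center Q).index_dvd_card))
  have f1 := hm ▸ Nat.pow_pos (n := m) hq.pos
  have f2 : t ∣ finrank k W ^ 2 - 1 ^ 2 := (Nat.modEq_iff_dvd' (Nat.pow_pos f1)).1 e8.symm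
  rw [Nat.sq_sub_sq, ht.dvd_mul] at f2
  rcases f2 with f2 | f2
  · rcases (Nat.le_of_dvd (Nat.succ_pos _) f2).eq_or_lt with f3 | f3
    · rcases hq.eq_two_or_odd' with rfl | f4
      · exact .inr ⟨rfl, m, by omega, by omega⟩
      · have := (ht.even_iff.1 (f3 ▸ hm ▸ f4.pow.add_one)); omega
    · exact .inl (by omega)
  · exact .inl (by have := Nat.le_of_dvd (by omega) f2; omega)

theorem dual_dim (ht : t.Prime) (h2 : t ≠ 2) (hq : q.Prime) (hq2 : q ≠ 2) (hk : (q : k) ≠ 0) (hQ : PGrp q Q)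
    (hx : PiElt {t} x) (hn : x ∈ N(Q)) (hd : DualOn ρ Q) (hne : q ≠ t ∨ Ab Q) (h : ¬ ⁅Q, ⟪x⟫⁆ ≤ ρ.ker) :
    2 * t ≤ finrank k V := by
  wlog hf : Injective ρ generalizing G
  · have e := MonoidHom.map_zpowers (QuotientGroup.mk' ρ.ker) x
    refine this (ρ := quoRep ρ _ le_rfl) (hQ.map (QuotientGroup.mk' _)) (piElt_iff.2 (e ▸ hx.zpowers.map _))
      (zpowers_le.1 (e ▸ map_norms _ (zpowers_le.2 hn))) ?_ (hne.imp_right (·.map _)) (fun c => h ?_)
      ((injective_iff_map_eq_one _).2 fun g hg => ?_)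
    · obtain ⟨n, B, a1, a2⟩ := hd
      exact ⟨n, B, by rintro _ ⟨g, hg, rfl⟩; exact a1 g hg, a2⟩
    · rw [← e, ← map_commutator, map_le_iff_le_comap] at c
      exact c
    · obtain ⟨g, rfl⟩ := QuotientGroup.mk_surjective g
      exact (QuotientGroup.eq_one_iff g).2 hg
  have hK := rcent_top hf
  rw [(MonoidHom.ker_eq_bot_iff _).2 hf, le_bot_iff, comm_eq_bot] at h
  have hc : ∀ X ≤ Q, (#X : k) ≠ 0 ∧ Odd #X := fun X hX => by
    obtain ⟨a, ha⟩ := (hQ.mono hX).exists_pow (card_ne_zero X)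
    rw [ha, Nat.cast_pow]; exact ⟨pow_ne_zero a hk, (hq.odd_of_ne_two hq2).pow⟩
  have ab : ∀ A ≤ Q, Ab A → x ∈ N(A) → ¬ A ≤ C(⟪x⟫) → 2 * t ≤ finrank k V := fun A a1 a2 a3 a4 =>
    dual_ab ht h2 a2 (hc A a1).1 (hc A a1).2 hx a3 (hd.mono a1) (by rwa [hK, le_bot_iff, comm_eq_bot])
  rcases hne with hne | hne
  swap
  · exact ab Q le_rfl hne hn h
  obtain ⟨P, a1, ⟨a2, a3⟩, a4⟩ := exists_min (fun X => x ∈ N(X) ∧ ¬ X ≤ C(⟪x⟫)) ⟨hn, h⟩
  have pP := hQ.mono a1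
  have n1 := zpowers_le.2 a2
  obtain ⟨b1, -⟩ := minimal_action n1 (le_nrm _) le_rfl (pP.cop_of_ne hx.zpowers hne).symm pP.sol (mt centsC a3)
    fun X c1 c2 => by_contra fun c => c1.ne (a4 X ⟨zpowers_le.1 c2, c⟩ c1.le)
  have lZ : Z(P) ≤ Q := inf_le_left.trans a1
  by_cases hZ : Z(P) ≤ C(⟪x⟫)
  swap
  · exact ab _ lZ (ab_center P) (norms_center n1 (mem_zpowers x)) hZ
  obtain ⟨c, c1, c2⟩ := exists_wt' hf (ab_center P) (hc _ lZ).1 le_rfl (pP.center_ne_bot fun e => a3 (e ▸ bot_le))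
  obtain ⟨z, z1, z2⟩ := SetLike.not_le_iff_exists.1 c2
  have c3 := inv_ne c1 (hc _ lZ).2 z1 z2
  have c4 := (hd.mono lZ).inv (hc _ lZ).1 c1
  have key : ∀ c, z ∉ rcent ρ (wsp ρ Z(P) c) → t ≤ finrank k (wsp ρ Z(P) c) := fun c e =>
    (ito_aux ht hq hne hk _ ρ _ P x rfl a2 pP hx (rInv_wsp (cen_le_wst (sup_le (centsC inf_le_right) (centsC hZ))))
      fun d => e (d (b1.ge z1.1))).resolve_right fun d => hq2 d.1
  have := Submodule.finrank_add_finrank_le_of_disjoint (s := wsp ρ Z(P) c) (t := wsp ρ Z(P) fun z => c z⁻¹)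
    (Submodule.disjoint_def.2 fun v a b => by_contra fun e => c3 (smul_left_injective k e
      ((b z z1).symm.trans (a z z1))))
  have d1 := key c z2
  have d2 := key (fun z => c z⁻¹) fun e => z2 (inv_mem_iff.1 ((wt_eq_one_iff c1 (inv_mem z1)).1
    ((wt_eq_one_iff c4 z1).2 e)))
  omega

end Cfsg.Agent.H1
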