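import Cfsg.Agent.H1.Ito
import Cfsg.Agent.H1.PLow
import Cfsg.Agent.FT.BG04a

/-! `p`-solvable groups with a non-normal Sylow `p`-subgroup. -/

set_option autoImplicit false
set_option linter.unusedSectionVars false
set_option linter.style.haveILetI false

namespace Cfsg.Agent.H1

open Cfsg Module Subgroup Cfsg.Agent.H28 Cfsg.Agent.FT Function
open scoped commutatorElement

variable {G : Type*} [Group G] [Finite G] {K P : Subgroup G} {x : G} {p : ℕ}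

theorem PSol.exists_compl (h : PSol p (⊤ : Subgroup G)) (hp : p.Prime) : ∃ K : Subgroup G, PiGrp {p}ᶜ K ∧
    MulEq O[{p}]((⊤ : Subgroup G)) N(K) ⊤ ∧ ∀ c, PiElt {p} c → c ∈ C(K) → c ∈ O[{p}]((⊤ : Subgroup G)) := by
  have nR := pcore_nml {p} (⊤ : Subgroup G)
  have pR : PGrp p O[{p}]((⊤ : Subgroup G)) := pcore_pi _ _
  have hc := (h.quo hp nR.nrm).cen hp (.inl rfl) (pcore_quo_pcore _ _)
  generalize O[{p}]((⊤ : Subgroup G)) = R at *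
  have nL := qpre_nml nR (pcore_nml {p}ᶜ (⊤ /ₛ R))
  have hP : Syl p R qpre(R, O[{p}ᶜ](⊤ /ₛ R)) := ⟨le_qpre _, pR, by rw [relIndex_qpre_self]; exact pcore_pi _ _⟩
  obtain ⟨K, hK, sd⟩ := hP.exists_compl (nL.le.trans nR.nrm)
  refine ⟨K, hK.pi, top_inf_eq N(K) ▸ sd_frattini sd (pR.cop hK.pi) (.inl pR.sol) nL nR.nrm, fun c h1 h2 =>
    zpowers_le.1 ((quo_eq_bot (le_top.trans nR.nrm)).1 ((h1.zpowers.quo R).eq_bot ((pcore_pi _ _).mono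
      ((le_inf (quo_mono _ le_top) ?_).trans hc))))⟩
  have := quo_cents R (zpowers_le.2 h2)
  rwa [← sd.quo_eq, quo_qpre] at this

theorem exists_syl_noncent (hK : PiGrp {p}ᶜ K) (hx : PiElt {p} x) (hn : x ∈ N(K)) (h : x ∉ C(K)) :
    ∃ q Q, q.Prime ∧ q ≠ p ∧ Syl q Q K ∧ x ∈ N(Q) ∧ ¬ Q ≤ C(⟪x⟫) := by
  obtain ⟨q, hq, h1⟩ := Nat.exists_prime_and_dvd (one_lt_relIndex (A := C(⟪x⟫)) (B := K)
    fun e => h (zpowers_le.1 (centsC e))).ne'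
  obtain ⟨Q, h2, h3⟩ := coprime_Sylow_exists q (zpowers_le.2 hn) (hK.cop' hx.zpowers) (.inr (sol_zpowers x))
  refine ⟨q, Q, hq, hK.mem hq (h1.trans (relIndex_dvd _ _)), h2, zpowers_le.1 h3, fun e => ?_⟩
  exact (p'nat_iff hq).1 h2.idx (h1.trans (relIndex_dvd_of_le e K))

theorem exists_pq_noncent (hp : p.Prime) (h : PSol p (⊤ : Subgroup G)) (hP : Syl p P ⊤) (hn : ¬ P ⊴ ⊤) :
    ∃ (q : ℕ) (Q : Subgroup G) (x : G), q.Prime ∧ q ≠ p ∧ PGrp q Q ∧ PiElt {p} x ∧ x ∈ N(Q) ∧ ¬ Q ≤ C(⟪x⟫) := by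
  obtain ⟨K, h1, h2, h3⟩ := h.exists_compl hp
  obtain ⟨T, hT, h4⟩ := bg4_exists_syl_not_le (A := N(K)) (B := O[{p}]((⊤ : Subgroup G))) hp (by
    rw [← h2.relIndex_left]
    by_contra e
    exact hn (Hall.uniq_of_nml ⟨le_top, pcore_pi _ _, (p'nat_iff hp).2 e⟩ (pcore_nml _ _).nrm hP ▸ pcore_nml _ _))
  obtain ⟨x, x1, x2⟩ := SetLike.not_le_iff_exists.1 h4
  have x3 := hT.pi.piElt x1
  obtain ⟨q, Q, a1, a2, a3, a4⟩ := exists_syl_noncent h1 x3 (hT.le x1) (mt (h3 x x3) x2)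
  exact ⟨q, Q, x, a1, a2, a3.pi, x3, a4⟩

end Cfsg.Agent.H1
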