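import Mathlib
import Cfsg.Agent.H1.Supersolv
import Cfsg.Agent.H27.Frob2
import Cfsg.Agent.H16.FCStruct
import Cfsg.Agent.H16.FreeRep

/-! Groups with the same order type. -/

set_option autoImplicit false
set_option linter.unusedSectionVars false
set_option linter.style.haveILetI false

namespace Cfsg.Agent.H1

open Cfsg Subgroup Cfsg.Agent.FT
open scoped commutatorElement Pointwise MatrixGroups

variable {G : Type*} [Group G] [Finite G] {G' : Type*} [Group G'] [Finite G'] {π : Set ℕ}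
  {p q n : ℕ} {A K C P : Subgroup G} {B : Subgroup G'}

/-- an order preserving bijection -/
def SameOrd (G G' : Type*) [Group G] [Group G'] : Prop := ∃ e : G ≃ G', ∀ g, orderOf (e g) = orderOf g

theorem sameOrd_of_card
    (h : ∀ m : ℕ, Nat.card {g : G // orderOf g = m} = Nat.card {g : G' // orderOf g = m}) :
    SameOrd G G' := by
  have e : ∀ m : ℕ, {g : G // orderOf g = m} ≃ {g : G' // orderOf g = m} := fun m =>
    (Finite.card_eq.1 (h m)).some
  exact ⟨Equiv.ofFiberEquiv e, fun g => Equiv.ofFiberEquiv_map e g⟩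

theorem SameOrd.symm (h : SameOrd G G') : SameOrd G' G := by
  obtain ⟨e, he⟩ := h
  exact ⟨e.symm, fun g => by rw [← he, e.apply_symm_apply]⟩

theorem SameOrd.card (h : SameOrd G G') : Nat.card G = Nat.card G' := by
  obtain ⟨e, -⟩ := h
  exact Nat.card_congr e

theorem SameOrd.exists_orderOf (h : SameOrd G G') (g : G) : ∃ g' : G', orderOf g' = orderOf g := by
  obtain ⟨e, he⟩ := h
  exact ⟨e g, he g⟩

theorem SameOrd.hall_card (h : SameOrd G G') (hA : Hall π A ⊤) (hB : Hall π B ⊤) : #A = #B := by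
  rw [hA.card, hB.card, card_top', card_top', h.card]

/-- a normal Hall subgroup is seen by the order type as soon as a Hall subgroup exists -/
theorem SameOrd.hall_norm (h : SameOrd G G') (hA : Hall π A ⊤) (hn : ⊤ ≤ N(A)) (hB : Hall π B ⊤) :
    ⊤ ≤ N(B) := by
  have hc := h.hall_card hA hB
  obtain ⟨e, he⟩ := h
  have h1 : {x : G' | PiElt π x}.ncard = #B := by
    rw [← hc]
    have : {x : G' | PiElt π x} = e '' (A : Set G) := by
      ext x
      obtain ⟨y, rfl⟩ := e.surjective x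
      rw [e.injective.mem_set_image]
      change PiNat π (orderOf (e y)) ↔ y ∈ A
      rw [he, hA.mem_iff_of_nml hn (mem_top y)]
      rfl
    rw [this, Set.ncard_image_of_injective _ e.injective]
    rfl
  have h2 : (B : Set G') = {x : G' | PiElt π x} :=
    Set.eq_of_subset_of_ncard_le (fun x hx => hB.pi.piElt hx) h1.le
  refine le_nrm_iff.2 fun g _ x hx => ?_
  change g * x * g⁻¹ ∈ (B : Set G')
  rw [h2]
  exact (hB.pi.piElt hx).conj g

theorem ge_succ_union (r : ℕ) : ({r} : Set ℕ) ∪ {q | r + 1 ≤ q} = {q | r ≤ q} := by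
  ext q
  simp only [Set.mem_union, Set.mem_singleton_iff, Set.mem_setOf_eq]
  omega

theorem hall_bot_large (r : ℕ) (hr : Nat.card G < r) : Hall {q | r ≤ q} (⊥ : Subgroup G) ⊤ := by
  refine ⟨bot_le, piGrp_bot _, fun q _ hq hle => ?_⟩
  rw [relIndex_bot_left, card_top'] at hq
  have := Nat.le_of_dvd Nat.card_pos hq
  change r ≤ q at hle
  omega

theorem down_induction {Q : ℕ → Prop} (n : ℕ) (h0 : ∀ r, n < r → Q r) (h : ∀ r, Q (r + 1) → Q r)
    (r : ℕ) : Q r := by
  have : ∀ d r, n < r + d → Q r := by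
    intro d
    induction d with
    | zero => exact h0
    | succ d ih => exact fun r hr => h r (ih _ (by omega))
  exact this (n + 1) r (by omega)

theorem SSol.exists_hall_ge (h : SSol (⊤ : Subgroup G)) (r : ℕ) :
    ∃ A : Subgroup G, Hall {q | r ≤ q} A ⊤ ∧ ⊤ ≤ N(A) := by
  refine down_induction (Q := fun r => ∃ A : Subgroup G, Hall {q | r ≤ q} A ⊤ ∧ ⊤ ≤ N(A))
    (Nat.card G) (fun r hr => ⟨⊥, hall_bot_large r hr, norms_bot _⟩) ?_ r
  rintro r ⟨A, hA, hn⟩
  obtain ⟨P, hP⟩ := exists_syl r (⊤ : Subgroup G)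
  refine ⟨A ⊔ P, ge_succ_union r ▸ hP.sup_of_nml hA (le_top.trans hn), ?_⟩
  refine h.syl_norm_quo ⟨le_top, hn⟩ hP fun q hq hd => ?_
  have := hA.idx q hq hd
  change ¬ r + 1 ≤ q at this
  omega

theorem SameOrd.sol_of_ssol (h : SameOrd G G') (hs : SSol (⊤ : Subgroup G)) :
    Sol (⊤ : Subgroup G') := by
  have key : ∀ r, ∃ B : Subgroup G', Hall {q | r ≤ q} B ⊤ ∧ ⊤ ≤ N(B) ∧ Sol B := by
    refine down_induction (Nat.card G')
      (fun r hr => ⟨⊥, hall_bot_large r hr, norms_bot _, inferInstance⟩) ?_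
    rintro r ⟨B, hB, hn, hsB⟩
    obtain ⟨P, hP⟩ := exists_syl r (⊤ : Subgroup G')
    obtain ⟨A, hA, hnA⟩ := hs.exists_hall_ge r
    have h1 : Hall {q | r ≤ q} (B ⊔ P) ⊤ := ge_succ_union r ▸ hP.sup_of_nml hB (le_top.trans hn)
    exact ⟨_, h1, h.hall_norm hA hnA h1, hsB.sup hP.pi.sol (le_top.trans hn)⟩
  obtain ⟨B, hB, hn, hsB⟩ := key 0
  exact hsB.mono (hB.le_of_nml hn (fun q _ _ => Nat.zero_le q) le_rfl)

/-! ### Frobenius groups -/

theorem frob_hall (h : Frob ⊤ K C) : Hall (piOf K) K ⊤ :=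
  h.sd.hall_left (piGrp_piOf K) h.cop.pi'

theorem frob_disc (h : Frob ⊤ K C) : H27.Disc (piOf K) G := by
  intro x y hx hy e
  by_contra hne
  obtain ⟨h1, h2⟩ := not_or.1 hne
  have hxK := (frob_hall h).mem_of_nml h.nml.nrm (mem_top x) hx
  have := h.cent1_ker hxK h1 (show y ∈ ⊤ ⊓ C[x] from ⟨mem_top y, mem_cen1.2 e.symm⟩)
  exact h2 (hy.eq_one ((piGrp_piOf K).piElt this |> fun h => by rwa [compl_compl]))

theorem SameOrd.disc (h : SameOrd G G') (hd : H27.Disc π G) : H27.Disc π G' := by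
  refine H27.disc_of_forall fun p hp q hq hp' hq' g hg => ?_
  obtain ⟨x, hx⟩ := h.symm.exists_orderOf g
  rw [hg] at hx
  have h1 : orderOf (x ^ q) = p := by
    rw [orderOf_pow_of_dvd hq'.ne_zero (hx ▸ Dvd.intro_left p rfl), hx,
      Nat.mul_div_cancel _ hq'.pos]
  have h2 : orderOf (x ^ p) = q := by
    rw [orderOf_pow_of_dvd hp'.ne_zero (hx ▸ Dvd.intro q rfl), hx,
      Nat.mul_div_cancel_left _ hp'.pos]
  rcases hd (x ^ q) (x ^ p) ((piElt_of_orderOf_prime hp' h1).2 hp)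
    ((piElt_of_orderOf_prime hq' h2).2 hq) (pow_mul_comm x q p) with e | e
  · rw [e, orderOf_one] at h1
    exact hp'.ne_one h1.symm
  · rw [e, orderOf_one] at h2
    exact hq'.ne_one h2.symm

theorem SameOrd.frob (h : SameOrd G G') (hF : Frob ⊤ K C) :
    ∃ K' C' : Subgroup G', Frob ⊤ K' C' ∧ #K' = #K ∧ #C' = #C := by
  have hK := frob_hall hF
  have hH : Hall (piOf K) O[piOf K]((⊤ : Subgroup G')) ⊤ := by
    refine hall_of_forall_syl le_top (pcore_pi _ _) fun p _ hp _ => ?_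
    obtain ⟨P, hP⟩ := exists_syl p K
    obtain ⟨Q, hQ⟩ := exists_syl p (⊤ : Subgroup G')
    have h1 : Syl p P ⊤ := ⟨le_top, hP.pi, by
      rw [← relIndex_mul hP.le le_top]
      exact hP.idx.mul (hK.idx.p'_of_mem hp)⟩
    have h2 := h.hall_norm h1 ((H5b.frob_ker_nil hF).norms_hall hP hF.nml.nrm) hQ
    exact ⟨Q, hQ, pcore_max (hQ.pi.pi hp) ⟨le_top, h2⟩⟩
  have hc := h.hall_card hK hH
  have e1 := hF.sd.card
  have hne : O[piOf K]((⊤ : Subgroup G')) ≠ ⊤ := by
    intro e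
    rw [e, card_top', ← h.card, ← card_top' (G := G), e1] at hc
    have := one_lt_card hF.compl_ne
    have := card_pos K
    nlinarith
  obtain ⟨C', hC'⟩ := (h.disc (frob_disc hF)).exists_frob hH (pcore_nrm _ _)
    (ne_bot_of_one_lt_card (hc ▸ one_lt_card hF.ker_ne)) hne
  refine ⟨_, C', hC', hc.symm, ?_⟩
  have e2 := hC'.sd.card
  rw [← hc, card_top', ← h.card, ← card_top' (G := G), e1] at e2
  exact (Nat.eq_of_mul_eq_mul_left (card_pos K) e2).symm

theorem perm5_pow : ∀ x : Equiv.Perm (Fin 5), x ^ 12 = 1 ∨ x ^ 5 = 1 := by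
  decide +kernel

theorem noInt_fifteen (h : H16.NoInt G) (hns : ¬ Group.IsSolvable G) :
    partn {3, 5} (Nat.card G) = 15 ∧ ∀ x : G, orderOf x ≠ 15 := by
  obtain ⟨φ, f, M, h1, -, -, h2, -, h3, h4, h5, h6, h7⟩ := h.nonsolvable_structure hns
  have c1 : #φ.range = 120 := by
    rw [← H16.card_sl25]
    exact (Nat.card_congr (MonoidHom.ofInjective h1).toEquiv).symm
  have c2 : #(φ.range ⊔ M) = 120 * #M := by
    rw [sup_comm, card_sup_of_inf (le_top.trans (normalizer_eq_top M).ge) (by rwa [inf_comm]), c1,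
      mul_comm]
  have c3 : (φ.range ⊔ M).index ∣ 2 := by
    rw [h7, index_comap]
    exact (relIndex_dvd_index_of_normal _ _).trans alternatingGroup.index_eq_two.dvd
  have c4 : Nat.card G = 15 * (8 * #M * (φ.range ⊔ M).index) := by
    rw [← (φ.range ⊔ M).card_mul_index, c2]; ring
  have c5 : Nat.Coprime 15 (8 * #M * (φ.range ⊔ M).index) :=
    Nat.Coprime.mul_right (Nat.Coprime.mul_right (by norm_num)
      (h5.symm.coprime_dvd_left (by norm_num))) (Nat.Coprime.coprime_dvd_right c3 (by norm_num))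
  have p1 : PiNat {3, 5} 15 :=
    ((piNat_prime Nat.prime_three).2 (by simp)).mul ((piNat_prime Nat.prime_five).2 (by simp))
  have p2 : ∀ n, Nat.Coprime 15 n → PiNat ({3, 5} : Set ℕ)ᶜ n := by
    rintro n hn q hq hd (rfl | rfl)
    · exact absurd (Nat.eq_one_of_dvd_coprimes hn (by norm_num) hd) (by norm_num)
    · exact absurd (Nat.eq_one_of_dvd_coprimes hn (by norm_num) hd) (by norm_num)
  refine ⟨?_, fun x hx => ?_⟩
  · rw [c4]
    exact partn_eq_of_mul p1 (p2 _ c5) (c4 ▸ Nat.card_pos.ne')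
  · have d1 : 15 ∣ #f.range := by
      have : 60 ∣ #f.range := by
        have := card_dvd (show alternatingGroup (Fin 5) ≤ f.range from h2 ▸ map_le_range _ _)
        rwa [show #(alternatingGroup (Fin 5)) = 60 by
          rw [Nat.card_eq_fintype_card]
          have := two_mul_card_alternatingGroup (α := Fin 5)
          rw [Fintype.card_perm, Fintype.card_fin] at this
          simp only [Nat.factorial] at this
          omega] at this
      exact Dvd.dvd.trans (by norm_num) this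
    obtain ⟨d, hd⟩ := d1
    have d2 : #f.ker ∣ 8 * #M * (φ.range ⊔ M).index := by
      have := f.ker.card_mul_index
      rw [index_ker, hd, c4] at this
      exact ⟨d, by nlinarith⟩
    have d3 : PiGrp ({3, 5} : Set ℕ)ᶜ f.ker := (p2 _ c5).of_dvd d2
    have d4 : PiElt {3, 5} x := by
      change PiNat _ _
      rwa [hx]
    have d5 : ∀ k, (f x) ^ k = 1 → 15 ∣ k := fun k hk => by
      rw [← hx, orderOf_dvd_iff_pow_eq_one]
      exact (d4.pow k).eq_one_of_mem d3 (by rwa [MonoidHom.mem_ker, map_pow])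
    rcases perm5_pow (f x) with e | e
    · exact absurd (d5 _ e) (by norm_num)
    · exact absurd (d5 _ e) (by norm_num)

theorem SameOrd.frob_sol (h : SameOrd G G') (hF : Frob ⊤ K C) (hs : Sol (⊤ : Subgroup G')) :
    Sol (⊤ : Subgroup G) := by
  obtain ⟨K', C', hF', -, hc⟩ := h.frob hF
  have hK : Sol K := (H5b.frob_ker_nil hF).sol
  suffices Sol C from hF.sd.sup ▸ hK.sup this hF.nrm
  by_contra hns
  obtain ⟨N, -, _, φ, hφ⟩ := H16.exists_freeAut_of_compl (H27.compl_of_frob_top hF).1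
  obtain ⟨h1, h2⟩ := noInt_fifteen hφ.noInt hns
  obtain ⟨L, hL⟩ := Hall_exists {3, 5} (hs.mono (le_top : C' ≤ ⊤))
  have hLc : #L = 3 * 5 := by rw [hL.card, hc, h1]
  have hcyc : Cyc L := regular_pq_group_cyclic Nat.prime_three Nat.prime_five hLc hF'.ker_ne
    (hs.mono le_top) (hL.le.trans hF'.nrm) (hF'.reg.mono_right hL.le)
  obtain ⟨y, hy⟩ := IsCyclic.exists_ofOrder_eq_natCard (α := L)
  obtain ⟨x, hx⟩ := h.symm.exists_orderOf (y : G')
  rw [Subgroup.orderOf_coe, hy, hLc] at hx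
  have hxK : x ∉ K := fun hxK => by
    have d1 : 3 ∣ #K := Dvd.dvd.trans (by rw [hx]; norm_num) (orderOf_dvd_card' hxK)
    have d2 : 3 ∣ #C := Dvd.dvd.trans (by rw [h1]; norm_num) (partn_dvd {3, 5} _)
    exact absurd (Nat.eq_one_of_dvd_coprimes hF.cop d1 d2) (by norm_num)
  obtain ⟨a, -, r, hr, -, rfl⟩ := hF.exists_conj (mem_top x) hxK
  refine h2 ⟨r, hr⟩ ?_
  rw [← Subgroup.orderOf_coe]
  exact ((MulAut.conj a).orderOf_eq r).symm.trans hx

end Cfsg.Agent.H1
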