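import Cfsg.Agent.H1.Ito
import Cfsg.Agent.H27.Quad
import Cfsg.Agent.L0.Zsig
import Cfsg.Agent.H28.SecRep
import Cfsg.Agent.H1.PLow
import Cfsg.Agent.FT.BG04a

/-! Solvable groups with one class of involutions (Thompson). -/

set_option autoImplicit false
set_option linter.unusedSectionVars false
set_option linter.style.haveILetI false

namespace Cfsg.Agent.H1

open Cfsg Module Subgroup Cfsg.Agent.H28 Cfsg.Agent.FT Function
open scoped commutatorElement TensorProduct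

variable {G : Type*} [Group G] [Finite G] {D L M Q R : Subgroup G} {x : G} {q t : ℕ}

theorem comm_mul_of_cl2 (hz : ⁅D, D⁆ ≤ Z(D)) : ∀ a ∈ D, ∀ b ∈ D, ∀ c ∈ D, ⁅a * b, c⁆ = ⁅b, c⁆ * ⁅a, c⁆ :=
  fun a ha b hb c hc => by
    rw [show ⁅a * b, c⁆ = a * ⁅b, c⁆ * a⁻¹ * ⁅a, c⁆ by simp only [commutatorElement_def]; group,
      mem_cen.1 (hz (commutator_mem_commutator hb hc)).2 a ha, mul_inv_cancel_right]

theorem SecRep_dualOn (S : SecRep 2 L D Z(D)) (hz : ⁅D, D⁆ ≤ Z(D)) (he : ∀ z ∈ Z(D), z ^ 2 = 1)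
    (hQ : Q ≤ C(Z(D))) : DualOn S.ρ (Q.subgroupOf L) := by
  obtain ⟨T⟩ := nonempty_secRep 2 (M := ⊥) bot_le (ab_iff_der.1 (ab_center D)).le he bot_le bot_le
  choose s s1 s2 using S.surj
  have c1 : ∀ a ∈ D, ∀ b ∈ D, ⁅a, b⁆ ∈ Z(D) := fun a ha b hb => hz (commutator_mem_commutator ha hb)
  have c2 := comm_mul_of_cl2 hz
  have c3 : ∀ a ∈ D, ∀ b ∈ D, ∀ c ∈ D, ⁅c, a * b⁆ = ⁅c, a⁆ * ⁅c, b⁆ := fun a ha b hb c hc => by
    rw [← commutatorElement_inv, c2 a ha b hb c hc, mul_inv_rev, commutatorElement_inv, commutatorElement_inv]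
  have c4 : ∀ a ∈ D, ∀ b ∈ D, ⁅s (S.π a), b⁆ = ⁅a, b⁆ := fun a ha b hb => by
    have h1 := (S.eq_iff (s1 _) ha).1 (s2 _)
    rw [← inv_mul_cancel_right (s (S.π a)) a, c2 _ h1.1 a ha b hb,
      commutatorElement_eq_one_iff_mul_comm.2 (mem_cen.1 h1.2 b hb).symm, mul_one]
  have c5 : ∀ a ∈ D, ∀ b ∈ D, ⁅s (S.π a), s (S.π b)⁆ = ⁅a, b⁆ := fun a ha b hb => by
    rw [c4 a ha _ (s1 _), ← commutatorElement_inv, c4 b hb a ha, commutatorElement_inv]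
  have a1 : ∀ v v' w, T.π ⁅s (v + v'), s w⁆ = T.π ⁅s v, s w⁆ + T.π ⁅s v', s w⁆ := fun v v' w => by
    conv_lhs => rw [← s2 v, ← s2 v', ← S.map_mul _ (s1 _) _ (s1 _), c4 _ (mul_mem (s1 _) (s1 _)) _ (s1 _)]
    rw [c2 _ (s1 _) _ (s1 _) _ (s1 _), T.map_mul _ (c1 _ (s1 _) _ (s1 _)) _ (c1 _ (s1 _) _ (s1 _)), add_comm]
  have a2 : ∀ v w w', T.π ⁅s v, s (w + w')⁆ = T.π ⁅s v, s w⁆ + T.π ⁅s v, s w'⁆ := fun v w w' => by
    conv_lhs => rw [← s2 v, ← s2 w, ← s2 w', ← S.map_mul _ (s1 _) _ (s1 _), c5 _ (s1 _) _ (mul_mem (s1 _) (s1 _))]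
    rw [c3 _ (s1 _) _ (s1 _) _ (s1 _), T.map_mul _ (c1 _ (s1 _) _ (s1 _)) _ (c1 _ (s1 _) _ (s1 _))]
  refine ⟨T.n, fun j => LinearMap.mk₂ (ZMod 2) (fun v w => T.π ⁅s v, s w⁆ j) (fun v v' w => congrFun (a1 v v' w) j)
    (fun c v w => congrFun (ZMod.map_smul (AddMonoidHom.mk' (fun v => T.π ⁅s v, s w⁆) (a1 · · w)) c v) j)
    (fun v w w' => congrFun (a2 v w w') j)
    (fun c v w => congrFun (ZMod.map_smul (AddMonoidHom.mk' (fun w => T.π ⁅s v, s w⁆) (a2 v)) c w) j),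
    fun g hg j v w => ?_, fun v hv => ?_⟩
  · have := c1 _ (s1 v) _ (s1 w)
    change T.π ⁅s _, s _⁆ j = T.π ⁅s v, s w⁆ j
    conv_lhs => rw [← s2 v, ← s2 w, ← S.conj _ _ (s1 _), ← S.conj _ _ (s1 _), c5 _ (conj_mem (S.nrm g.2) (s1 _)) _
      (conj_mem (S.nrm g.2) (s1 _)), ← conjugate_commutatorElement, ← mem_cen.1 (show (g : G) ∈ _ from hQ hg) _ this, mul_inv_cancel_right]
  · rw [← s2 v, S.eq_zero _ (s1 v)]
    refine ⟨s1 v, mem_cen.2 fun b hb => (commutatorElement_eq_one_iff_mul_comm.1 ?_).symm⟩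
    rw [← mem_bot, ← T.eq_zero _ (c1 _ (s1 v) b hb), ← c5 _ (s1 v) b hb, s2]
    exact funext fun j => hv j _

theorem cent_of_small (hR : PGrp 2 R) (hM : ∀ y ∈ R, y ^ 2 = 1 → y ∈ M) (hc : M ≤ C(R)) (he : ∀ y ∈ M, y ^ 2 = 1)
    (ht : t.Prime) (h2 : t ≠ 2) (hq : q.Prime) (hq2 : q ≠ 2) (hlt : #M < 2 ^ t) (hQ : PGrp q Q) (hQR : Q ≤ N(R))
    (hQM : Q ≤ C(M)) (hx : PiElt {t} x) (hxR : x ∈ N(R)) (hn : x ∈ N(Q)) (hne : q ≠ t ∨ Ab Q) :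
    ⁅Q, ⟪x⟫⁆ ≤ C(R) := by
  by_contra h
  have n1 := zpowers_le.2 hn
  have l1 : ⁅Q, ⟪x⟫⁆ ≤ Q := comm_le_left n1
  have n2 : Q ⊔ ⟪x⟫ ≤ N(⁅Q, ⟪x⟫⁆) := sup_le (norm_comm_left _ _) (norm_comm_right _ _)
  generalize hA : ⁅Q, ⟪x⟫⁆ = A at h l1 n2
  obtain ⟨D, a1, ⟨a2, a3⟩, a4⟩ := exists_min (fun X => Q ⊔ ⟪x⟫ ≤ N(X) ∧ ¬ A ≤ C(X)) ⟨sup_le hQR (zpowers_le.2 hxR), h⟩
  have pD := hR.mono a1
  have lA := l1.trans (le_sup_left : Q ≤ Q ⊔ ⟪x⟫)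
  have cp : Cop D A := pD.cop_of_ne (hQ.mono l1) hq2.symm
  have hmin : ∀ X < D, Q ⊔ ⟪x⟫ ≤ N(X) → X ≤ C(A) := fun X c1 c2 => by_contra fun c =>
    c1.ne (a4 X ⟨c2, mt centsC c⟩ c1.le)
  obtain ⟨b1, b2, b3, b4⟩ := minimal_action a2 n2 lA cp.symm pD.sol a3 hmin
  have d0 : D ≠ ⊥ := fun e => a3 (by rw [e, cen_bot]; exact le_top)
  have d1 : ∀ y ∈ D, y ^ 2 ∈ Z(D) := fun y hy => have := pD.pow_mem_Phi hy
    ⟨Phi_le D this, b3 ⟨Phi_le D this, hmin _ (Phi_lt d0) (norms_Phi a2) this⟩⟩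
  have d2 : ⁅D, D⁆ ≤ Z(D) := le_inf (der_le D) ((le_inf (der_le D) b2).trans b3)
  have d3 : D ⊓ C(A) ≤ ⁅D, D⁆ := by simpa [b1] using coprime_cent_comm_le_der (lA.trans a2) cp
  obtain ⟨-, b4⟩ | ⟨-, d4⟩ := b4
  · obtain ⟨y, y1, y2⟩ := pD.exists_elt d0
    rw [b4.le ⟨y1, centsC (l1.trans hQM) (hM y (a1 y1) (y2 ▸ pow_orderOf_eq_one y))⟩, orderOf_one] at y2
    omega
  have d5 : Z(D) ≤ C(A) := hmin _ (lt_of_le_of_ne inf_le_left fun e => d4 (inf_eq_left.1 e)) (norms_center a2)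
  have d7 : Z(D) ≤ M := ((le_inf inf_le_left d5).trans d3).trans (commutator_le.2 fun a ha b hb =>
    hM _ (a1 (der_le D (commutator_mem_commutator ha hb))) (by
      rw [sq, ← comm_mul_of_cl2 d2 a ha a ha b hb, ← sq, commutatorElement_eq_one_iff_mul_comm,
        mem_cen.1 (d1 a ha).2 b hb]))
  have d6 : ∀ z ∈ Z(D), z ^ 2 = 1 := fun z hz => he z (d7 hz)
  have d8 := H27.card_dvd_cube le_rfl d1 fun y hy => ⟨fun e => ⟨hy, cen_anti a1 (hc (hM y (a1 hy) e))⟩, d6 y⟩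
  obtain ⟨S⟩ := nonempty_secRep 2 inf_le_left d2 d1 a2 (norms_center a2)
  have lx : x ∈ Q ⊔ ⟪x⟫ := mem_sup_right (mem_zpowers x)
  have ex : ⟪(⟨x, lx⟩ : ↥(Q ⊔ ⟪x⟫))⟫ = ⟪x⟫.subgroupOf _ := by
    rw [← so_map ⟪_⟫, MonoidHom.map_zpowers]; rfl
  have e1 := dual_dim (k := AlgebraicClosure (ZMod 2)) (x := ⟨x, lx⟩) ht h2 hq hq2
    (fun e => hq2 ((Nat.prime_dvd_prime_iff_eq Nat.prime_two hq).1 ((CharP.cast_eq_zero_iff _ 2 q).1 e)).symm)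
    ((piGrp_so le_sup_left).2 hQ) (piElt_iff.2 (ex ▸ (piGrp_so le_sup_right).2 hx.zpowers))
    (zpowers_le.1 (ex ▸ so_norms n1 _)) ((SecRep_dualOn S d2 d6 (hQM.trans (cen_anti d7))).bc _)
    (hne.imp_right (·.so le_sup_left)) fun e => by
      rw [ker_bcRep, ex, ← so_comm le_sup_left le_sup_right, hA, S.le_ker_iff lA, Subgroup.commutator_comm, b1] at e
      exact d4 (e.trans inf_le_right)
  rw [finrank_baseChange, finrank_fin_fun] at e1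
  have e2 := card_mul_relIndex (inf_le_left : Z(D) ≤ D)
  rw [← e2, S.relIndex_eq, pow_succ', Nat.mul_dvd_mul_iff_left (card_pos _)] at d8
  have e3 := (Nat.pow_le_pow_right two_pos e1).trans (Nat.le_of_dvd (Nat.pow_pos (card_pos _)) d8)
  rw [pow_mul'] at e3
  exact ((card_le d7).trans_lt hlt).not_ge ((Nat.pow_le_pow_iff_left two_ne_zero).1 e3)

theorem exists_prime_gt_two_pow {n : ℕ} (hn : 1 < n) : ∃ t, t.Prime ∧ t ≠ 2 ∧ t ∣ 2 ^ n - 1 ∧ n < t := by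
  by_cases h : n = 6
  · exact ⟨7, by norm_num, by norm_num, by rw [h]; norm_num, by omega⟩
  obtain ⟨t, h1, h2⟩ := L0.zsigmondy one_lt_two hn (fun e => h e.2) fun ⟨_, m, e⟩ => by
    rcases m with _ | m <;> omega
  haveI := Fact.mk h1
  have h3 : ((2 : ℕ) : ZMod t) ≠ 0 := fun e => by rw [e, orderOf_zero] at h2; omega
  have := h1.two_le
  have := Nat.le_of_dvd (by omega) (h2 ▸ ZMod.orderOf_dvd_card_sub_one h3)
  exact ⟨t, h1, fun e => h3 (by subst e; rfl), (L0.dvd_pow_sub_one_iff two_pos t n).2 h2.dvd, by omega⟩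

theorem syl_of_one_class (hs : Sol (⊤ : Subgroup G)) (hO : O[{2}ᶜ]((⊤ : Subgroup G)) = ⊥) {a b : G} (hab : a ≠ b)
    (a1 : a ≠ 1) (a2 : a ^ 2 = 1) (b1 : b ≠ 1) (b2 : b ^ 2 = 1)
    (hc : ∀ x y : G, x ≠ 1 → x ^ 2 = 1 → y ≠ 1 → y ^ 2 = 1 → IsConj x y) : Syl 2 O[{2}]((⊤ : Subgroup G)) ⊤ := by
  have nR := pcore_nml {2} (⊤ : Subgroup G)
  have pR : PGrp 2 O[{2}]((⊤ : Subgroup G)) := pcore_pi _ _
  have cR := cent_sub_pcore hs hO
  have r0 := hs.pcore_ne_bot (fun e => a1 (e.le (mem_top a))) hO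
  have pF : PiGrp {2}ᶜ F(⊤ /ₛ O[{2}]((⊤ : Subgroup G))) := fitting_pi (by rw [compl_compl]; exact pcore_quo_pcore _ _)
  generalize O[{2}]((⊤ : Subgroup G)) = R at *
  have nM := nR.center.Ohm 2
  have aM := abelem_Ohm_center 2 R
  have cM := Ohm_center_le_cen 2 (le_refl R)
  have lM : Ω[2](Z(R)) ≤ R := (Ohm_le _ _).trans inf_le_left
  have m0 := pR.Ohm_center_ne_bot r0
  generalize Ω[2](Z(R)) = M at *
  have cj : ∀ {H : Subgroup G} {m}, H ⊴ ⊤ → m ≠ 1 → m ^ 2 = 1 → m ∈ H → ∀ y, y ^ 2 = 1 → y ∈ H :=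
    fun hH m1 m2 m3 y hy => (eq_or_ne y 1).elim (· ▸ one_mem _) fun e =>
      let ⟨g, hg⟩ := isConj_iff.1 (hc _ y m1 m2 e hy); hg ▸ conj_mem (hH.nrm (mem_top g)) m3
  obtain ⟨m, m1, m2⟩ := exists_ne_one m0
  have hM := cj nM m2 (aM.pow m1) m1
  obtain ⟨n, hn⟩ := (pR.mono lM).exists_pow (card_ne_zero M)
  have cls : C[a].relIndex ⊤ + 1 = 2 ^ n := by
    rw [← ncard_conj_set, ← hn, ← SetLike.coe_sort_coe, Nat.card_coe_set_eq,
      ← Set.ncard_sdiff_singleton_add_one (s := (M : Set G)) (one_mem M)]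
    congr 2; ext y
    refine ⟨?_, fun h => (isConj_iff.1 (hc a y a1 a2 h.2 (aM.pow h.1))).imp fun g hg => ⟨trivial, hg⟩⟩
    rintro ⟨g, -, rfl⟩
    exact ⟨conj_mem (nM.nrm (mem_top g)) (hM a a2), by simpa using a1⟩
  have n2 : 1 < n := by
    have : 2 < Nat.card M := (Set.two_lt_ncard_iff (s := (M : Set G))).2
      ⟨1, a, b, one_mem M, hM a a2, hM b b2, a1.symm, b1.symm, hab⟩
    rw [hn] at this
    exact (Nat.pow_lt_pow_iff_right one_lt_two).1 (by simpa using this)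
  obtain ⟨t, ht, t2, t1, t3⟩ := exists_prime_gt_two_pow n2
  have nL := qpre_nml nR (fitting_nml (⊤ /ₛ R))
  have hP : Syl 2 R qpre(R, F(⊤ /ₛ R)) := ⟨le_qpre _, pR, by rw [relIndex_qpre_self]; exact pF⟩
  obtain ⟨X, hX, sd⟩ := hP.exists_compl (nL.le.trans nR.nrm)
  have fr := sd_frattini sd (pR.cop hX.pi) (.inl pR.sol) nL nR.nrm
  by_cases h1 : R ⊓ C(X) = ⊥
  · refine fr.hall_left pR (p'grp_of_not_dvd fun h2 => ?_)
    obtain ⟨y, y1, y2⟩ := exists_elt_of_prime_dvd Nat.prime_two h2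
    rw [← coprime_norm_cent sd.nrm (pR.cop hX.pi)] at h1
    rw [h1.le ⟨lM (hM y (y2 ▸ pow_orderOf_eq_one y)), y1.2⟩, orderOf_one] at y2
    omega
  exfalso
  obtain ⟨y, y1, y2⟩ := (pR.mono inf_le_left).exists_elt h1
  have y3 := y2 ▸ pow_orderOf_eq_one y
  have cL : qpre(R, F(⊤ /ₛ R)) ≤ C(M) := centsC fun z hz => cj ⟨le_top, norms_cent nL.nrm⟩ (fun e => by simp [e] at y2) y3
    (by rw [← sd.sup, cen_sup]; exact ⟨cM (hM y y3), y1.2⟩) z (aM.pow hz)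
  have cR' : R ≤ C[a] := fun z hz => mem_cen1.2 (mem_cen.1 (cM (hM a a2)) z hz)
  obtain ⟨T, hT, h2⟩ := bg4_exists_syl_not_le (A := ⊤ ⊓ N(X)) (B := C[a]) ht (by
    rw [← (fr.mono cR' le_top le_rfl le_top).relIndex_left, Nat.eq_sub_of_add_eq cls]; exact t1)
  obtain ⟨τ, τ1, τ2⟩ := SetLike.not_le_iff_exists.1 h2
  have key : ∀ q Q x, q.Prime → PGrp q Q → Q ≤ X → PiElt {t} x → x ∈ N(Q) → q ≠ t ∨ Ab Q → Q ≤ C(⟪x⟫) :=
    fun q Q x c1 c2 c3 c4 c5 c6 => by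
    by_cases c0 : Q = ⊥
    · exact c0 ▸ bot_le
    exact comm_eq_bot.1 (eq_bot_iff.2 (sd.inf ▸ le_inf ((le_inf le_top (cent_of_small pR (fun y _ => hM y) cM (fun _ => aM.pow)
      ht t2 c1 (hX.pi.mem c1 ((c2.dvd c0).trans (card_dvd c3))) (hn ▸ Nat.pow_lt_pow_right one_lt_two t3) c2
      (le_top.trans nR.nrm) ((c3.trans sd.right).trans cL) c4 (nR.nrm (mem_top x)) c5 c6)).trans cR)
      ((comm_le_left (zpowers_le.2 c5)).trans c3)))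
  have nX : Nil X := sd.nil_quo.1 (by rw [quo_qpre]; exact fitting_nil _)
  have τ3 := hT.pi.piElt τ1
  have τ4 := zpowers_le.2 (hT.le τ1).2
  have h3 : X ≤ C(⟪τ⟫) := nX.fitting_eq ▸ fitting_le_of_forall_pcore fun q hq => by
    have c1 := norms_pcore {q} τ4
    have c2 : PGrp q O[{q}](X) := pcore_pi _ _
    have c3 := pcore_le {q} X
    generalize O[{q}](X) = Q at *
    by_cases e : q = t
    swap
    · exact key q Q τ hq c2 c3 τ3 (zpowers_le.1 c1) (.inl e)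
    subst e
    have c4 : PGrp q (Q ⊔ ⟪τ⟫) := c2.sup τ3.zpowers c1
    refine le_trans (by_contra fun c => ?_) (cen_anti (le_sup_right : ⟪τ⟫ ≤ Q ⊔ ⟪τ⟫))
    obtain ⟨z, z1, z2, z3⟩ := c4.nil.exists_comm_mem ⟨le_sup_left, sup_le (le_nrm Q) c1⟩ c
    have c5 : ⟪z⟫ ⊔ C(Q ⊔ ⟪τ⟫) ⊓ Q ≤ Q := sup_le (zpowers_le.2 z1) inf_le_right
    have c6 : Q ⊔ ⟪τ⟫ ≤ N(⟪z⟫ ⊔ C(Q ⊔ ⟪τ⟫) ⊓ Q) := fun s hs => mem_nrm.2 fun y hy =>
      (sup_le (zpowers_le.2 (by simpa [commutatorElement_def, mul_assoc] using (mul_mem (inv_mem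
        (mem_sup_right (z3 s hs))) (mem_sup_left (mem_zpowers z))))) fun y hy => mem_sup_right (conj_mem (normsI
          (norms_cent (le_nrm _)) (sup_le (le_nrm Q) c1) hs) hy) : _ ≤ comap (MulAut.conj s).toMonoidHom
            (⟪z⟫ ⊔ C(Q ⊔ ⟪τ⟫) ⊓ Q)) hy
    refine mem_cen.2 (fun s hs => ?_) |> z2
    exact (mem_cen1.1 (cen_zpowers s ▸ key q _ s hq (c2.mono c5) (c5.trans c3) (c4.piElt hs) (c6 hs) (.inr
      ((ab_zpowers z).sup (ab_iff.2 (inf_le_left.trans (cen_anti (inf_le_right.trans le_sup_left))))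
        (inf_le_left.trans (cen_anti ((zpowers_le.2 z1).trans le_sup_left))))) (mem_sup_left (mem_zpowers z)))).symm
  refine τ2 (cen_le_cen1 (hM a a2) (cL (zpowers_le.1 ((quo_le_iff (le_top.trans nR.nrm)).1 (le_trans (le_inf
    (quo_mono _ le_top) ?_) (cent_sub_Fitting (hs.quo R)))))))
  have := quo_cents R (centsC h3)
  rwa [← sd.quo_eq, quo_qpre] at this

theorem homocyclic_of_trans {A : Type*} [Group A] [Finite A] (hA : IsMulCommutative A) (h2 : IsPGroup 2 A)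
    (h : ∀ x y : A, x ≠ 1 → x ^ 2 = 1 → y ≠ 1 → y ^ 2 = 1 → ∃ a : MulAut A, a x = y) :
    ∃ m r : ℕ, Nonempty (A ≃* (Fin r → Multiplicative (ZMod (2 ^ m)))) := by
  classical
  letI : CommGroup A := { mul_comm := hA.is_comm.comm }
  obtain ⟨ι, _, n, hn, ⟨e⟩⟩ := CommGroup.equiv_prod_multiplicative_zmod_of_finite A
  have : ∀ i, ∃ a, n i = 2 ^ (a + 1) := fun i => by
    haveI : NeZero (n i) := ⟨by have := hn i; omega⟩
    obtain ⟨_ | a, ha⟩ : ∃ a, n i = 2 ^ a := by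
      simpa using ((h2.of_equiv e).of_surjective (Pi.evalMonoidHom _ i) (surjective_eval i)).exists_card_eq
    exacts [absurd (hn i) (by simp [ha]), ⟨a, ha⟩]
  choose a ha using this
  obtain rfl : n = fun i => 2 ^ (a i + 1) := funext ha
  let w i := e.symm (Pi.mulSingle i (Multiplicative.ofAdd 1))
  have o : ∀ i k, w i ^ k = 1 ↔ 2 ^ (a i + 1) ∣ k := fun i k => by
    rw [← orderOf_dvd_iff_pow_eq_one, e.symm.orderOf_eq, orderOf_piMulSingle, orderOf_ofAdd_eq_addOrderOf,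
      ZMod.addOrderOf_one]
  have o1 : ∀ i, w i ^ 2 ^ a i ≠ 1 := fun i e => by simpa [Nat.pow_dvd_pow_iff_le_right] using (o i _).1 e
  have o2 : ∀ i, (w i ^ 2 ^ a i) ^ 2 = 1 := fun i => by rw [← pow_mul, o, pow_succ]
  have key : ∀ i j, a j ≤ a i := fun i j => le_of_not_gt fun c => by
    obtain ⟨f, hf⟩ := h _ _ (o1 j) (o2 j) (o1 i) (o2 i)
    have := congrFun (congrArg e hf) i
    rw [map_pow, map_pow, Pi.pow_apply, orderOf_dvd_iff_pow_eq_one.1 ((_root_.orderOf_dvd_natCard _).trans (by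
      simpa using pow_dvd_pow 2 (Nat.succ_le_of_lt c))), map_pow, e.apply_symm_apply, Pi.pow_apply,
      Pi.mulSingle_eq_same, eq_comm, ← orderOf_dvd_iff_pow_eq_one, orderOf_ofAdd_eq_addOrderOf,
      ZMod.addOrderOf_one] at this
    simp [Nat.pow_dvd_pow_iff_le_right] at this
  obtain ⟨m, hm⟩ : ∃ m, ∀ i, a i = m := by
    cases isEmpty_or_nonempty ι
    exacts [⟨0, isEmptyElim⟩, ⟨a (Classical.arbitrary ι), fun i => le_antisymm (key _ _) (key _ _)⟩]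
  obtain rfl : a = fun _ => m := funext hm
  exact ⟨m + 1, _, ⟨e.trans (MulEquiv.arrowCongr (Fintype.equivFin ι) (MulEquiv.refl _))⟩⟩

end Cfsg.Agent.H1
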